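import Cfsg.Agent.Blk.AbelCover
import Cfsg.Agent.Blk.PairMisc

open scoped ComplexConjugate MonoidAlgebra

namespace Cfsg

universe u v
variable {G : Type u} [Group G] [Finite G] {p : ℕ} {M : Ideal AlgInt}

section Avg
variable {k : Type v} [Field k]

/-- the averaging element `|L|⁻¹ ∑_{x ∈ L} x` -/
noncomputable def avgGA (k : Type v) [Field k] (L : Subgroup G) : k[G] :=
  haveI := Fintype.ofFinite L
  (Nat.card L : k)⁻¹ • ∑ x : L, MonoidAlgebra.single (x : G) (1 : k)

open Classical in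
theorem coeff_avgGA (L : Subgroup G) (g : G) :
    (avgGA k L).coeff g = if g ∈ L then (Nat.card L : k)⁻¹ else 0 := by
  unfold avgGA
  rw [MonoidAlgebra.coeff_smul, Finsupp.smul_apply, MonoidAlgebra.coeff_sum, Finsupp.finsetSum_apply]
  simp only [MonoidAlgebra.coeff_single, Finsupp.single_apply]
  split_ifs with h
  · rw [Finset.sum_eq_single (⟨g, h⟩ : L), if_pos rfl, smul_eq_mul, mul_one]
    · intro x _ hx
      rw [if_neg]
      rintro rfl
      exact hx rfl
    · simp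
  · rw [Finset.sum_eq_zero, smul_zero]
    intro x _
    rw [if_neg]
    rintro rfl
    exact h x.2

theorem avgGA_mem_suppGA (L : Subgroup G) : avgGA k L ∈ suppGA k L :=
  mem_suppGA.2 fun g hg => by rw [coeff_avgGA, if_neg hg]

theorem isFixedGA_avgGA {L K : Subgroup G} (h : K ≤ Subgroup.normalizer (L : Set G)) :
    IsFixedGA K (avgGA k L) := by
  classical
  intro g hg
  ext y
  rw [coeff_gaConj, coeff_avgGA, coeff_avgGA]
  have := (Subgroup.mem_normalizer_iff''.1 (h hg)) y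
  simp only [this]

theorem single_mul_avgGA {L : Subgroup G} {x : G} (hx : x ∈ L) :
    MonoidAlgebra.single x (1 : k) * avgGA k L = avgGA k L := by
  classical
  ext y
  rw [MonoidAlgebra.coeff_single_mul_apply, one_mul, coeff_avgGA, coeff_avgGA]
  simp only [L.mul_mem_cancel_left (L.inv_mem hx)]

theorem avgGA_mul_eq_iff [Fact p.Prime] [CharP k p] {L : Subgroup G} (hL : ¬ p ∣ Nat.card L)
    {f : k[G]} : avgGA k L * f = f ↔ ∀ x ∈ L, MonoidAlgebra.single x (1 : k) * f = f := by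
  constructor
  · intro h x hx
    rw [← h, ← mul_assoc, single_mul_avgGA hx]
  · intro h
    unfold avgGA
    rw [smul_mul_assoc, Finset.sum_mul, Finset.sum_congr rfl (fun (x : L) _ => h x x.2), Finset.sum_const,
      @Finset.card_univ _ (Fintype.ofFinite L), ← @Nat.card_eq_fintype_card _ (Fintype.ofFinite L), ← Nat.cast_smul_eq_nsmul k, smul_smul,
      inv_mul_cancel₀, one_smul]
    rwa [Ne, CharP.cast_eq_zero_iff k p]

theorem isIdempotentElem_avgGA [Fact p.Prime] [CharP k p] {L : Subgroup G}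
    (hL : ¬ p ∣ Nat.card L) : IsIdempotentElem (avgGA k L) :=
  (avgGA_mul_eq_iff hL).2 fun _ hx => single_mul_avgGA hx

theorem augGA_avgGA [Fact p.Prime] [CharP k p] {L : Subgroup G} (hL : ¬ p ∣ Nat.card L) :
    augGA k G (avgGA k L) = 1 := by
  unfold avgGA
  rw [map_smul, map_sum]
  simp only [augGA_single, Finset.sum_const, Finset.card_univ, ← Nat.card_eq_fintype_card,
    nsmul_eq_mul, mul_one, smul_eq_mul]
  rw [inv_mul_cancel₀]
  rwa [Ne, CharP.cast_eq_zero_iff k p]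

theorem brGA_avgGA [Fact p.Prime] [CharP k p] {L R : Subgroup G} (hL : ¬ p ∣ Nat.card L)
    (hR : IsPGroup p R) (hRL : R ≤ Subgroup.normalizer (L : Set G)) :
    brGA k R (avgGA k L) = avgGA k (L ⊓ Subgroup.centralizer (R : Set G)) := by
  classical
  set L' := L ⊓ Subgroup.centralizer (R : Set G)
  have hL' : ¬ p ∣ Nat.card L' := fun h => hL (h.trans (Subgroup.card_dvd_of_le inf_le_left))
  have h0 : (Nat.card L' : k) ≠ 0 := by rwa [Ne, CharP.cast_eq_zero_iff k p]
  have h1 : brGA k R (avgGA k L) = ((Nat.card L : k)⁻¹ * Nat.card L') • avgGA k L' := by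
    ext y
    rw [MonoidAlgebra.coeff_smul, Finsupp.smul_apply, coeff_avgGA, smul_eq_mul]
    by_cases hy : y ∈ Subgroup.centralizer (R : Set G)
    · rw [coeff_brGA_of_mem _ hy, coeff_avgGA]
      by_cases hyL : y ∈ L
      · rw [if_pos hyL, if_pos (Subgroup.mem_inf.2 ⟨hyL, hy⟩), mul_assoc, mul_inv_cancel₀ h0, mul_one]
      · rw [if_neg hyL, if_neg (fun h => hyL h.1), mul_zero]
    · rw [coeff_brGA_of_notMem _ hy, if_neg (fun h => hy h.2), mul_zero]
  have h2 := augGA_brGA hR (isFixedGA_avgGA (k := k) hRL)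
  rw [h1, map_smul, augGA_avgGA hL, augGA_avgGA hL', smul_eq_mul, mul_one] at h2
  rw [h1, h2, one_smul]

theorem NSub.forall_single_mul_iff [Fact p.Prime] [CharP k p] {N Q P L : Subgroup G} {f e : k[G]}
    (h : NSub p N Q f P e) (hL : ¬ p ∣ Nat.card L) (hLC : L ≤ cenIn N Q)
    (hP : P ≤ Subgroup.normalizer (L : Set G)) (hC : cenIn N Q ≤ Subgroup.normalizer (L : Set G)) :
    (∀ x ∈ L, MonoidAlgebra.single x (1 : k) * f = f) ↔
      ∀ x ∈ L ⊓ Subgroup.centralizer (P : Set G), MonoidAlgebra.single x (1 : k) * e = e := by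
  have := h.brGA_mul_eq_iff (suppGA_mono (hLC.trans inf_le_left) (avgGA_mem_suppGA L))
    (isFixedGA_avgGA hP) (isFixedGA_avgGA hC) (isIdempotentElem_avgGA hL)
  rwa [brGA_eq_self (suppGA_mono (hLC.trans inf_le_right) (avgGA_mem_suppGA L)),
    brGA_avgGA hL h.right.pgrp hP, avgGA_mul_eq_iff hL,
    avgGA_mul_eq_iff (fun h => hL (h.trans (Subgroup.card_dvd_of_le inf_le_left)))] at this

theorem IsPairOf.forall_single_mul_iff [Fact p.Prime] [CharP k p] {H Q L : Subgroup G} {c f : k[G]}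
    (h : IsPairOf p H H c Q f) (hc : IsBlk k H c) (hL : ¬ p ∣ Nat.card L) (hLH : L ≤ H)
    (hH : H ≤ Subgroup.normalizer (L : Set G)) :
    (∀ x ∈ L, MonoidAlgebra.single x (1 : k) * c = c) ↔
      ∀ x ∈ L ⊓ Subgroup.centralizer (Q : Set G), MonoidAlgebra.single x (1 : k) * f = f := by
  have hm : avgGA k L ∈ fixSuppGA k H H :=
    mem_fixSuppGA.2 ⟨suppGA_mono hLH (avgGA_mem_suppGA L), isFixedGA_avgGA hH⟩
  have hmul := brGA_mul h.pair.pgrp (isFixedGA_avgGA (k := k) (h.le.trans hH)) (hc.fixed.mono h.le)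
  rw [← avgGA_mul_eq_iff hL,
    ← avgGA_mul_eq_iff (fun h => hL (h.trans (Subgroup.card_dvd_of_le inf_le_left))),
    ← brGA_avgGA hL h.pair.pgrp (h.le.trans hH)]
  constructor
  · intro h1
    rw [h1] at hmul
    rw [← h.br, ← mul_assoc, ← hmul]
  · intro h1
    refine hc.fix_mul_eq_of_ne_zero le_rfl hm (isIdempotentElem_avgGA hL) fun h0 => ?_
    rw [h0, map_zero] at hmul
    apply h.pair.ne_zero
    rw [← h1, ← h.br, ← mul_assoc, ← hmul, zero_mul]

omit [Finite G] in
theorem single_mul_gaConj_eq {f : k[G]} {x y : G}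
    (h : MonoidAlgebra.single (x⁻¹ * y * x) (1 : k) * f = f) :
    MonoidAlgebra.single y (1 : k) * gaConj k x f = gaConj k x f := by
  have := congrArg (gaConj k x) h
  rwa [map_mul, gaConj_single, show x * (x⁻¹ * y * x) * x⁻¹ = y by group] at this

end Avg

theorem IsPBlock.forall_single_mul_subIdem_iff (hM : IsPModular p M) {K L : Subgroup G}
    {b : Set (IrrCharacter K)} (hb : IsPBlock M b) (hL : ¬ p ∣ Nat.card L) (hLK : L ≤ K)
    (hK : K ≤ Subgroup.normalizer (L : Set G)) :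
    (∀ x ∈ L, MonoidAlgebra.single x (1 : resK M) * subIdem M K b = subIdem M K b) ↔
      ∀ θ ∈ b, ∀ x : K, (x : G) ∈ L → θ.1 x = θ.1 1 := by
  classical
  have : Fact p.Prime := ⟨hM.1⟩
  have := hM.charP
  have : (L.subgroupOf K).Normal := Subgroup.normal_subgroupOf_of_le_normalizer hK
  have hcard : Nat.card (L.subgroupOf K) = Nat.card L :=
    Nat.card_congr (Subgroup.subgroupOfEquivOfLe hLK).toEquiv
  have hm : avgGA (resK M) L ∈ fixSuppGA (resK M) K K :=
    mem_fixSuppGA.2 ⟨suppGA_mono hLK (avgGA_mem_suppGA L), isFixedGA_avgGA hK⟩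
  have ht : gaTrunc (resK M) K (avgGA (resK M) L) =
      idemK M {χ : IrrCharacter K | L.subgroupOf K ≤ charKer χ.1} := by
    ext y
    rw [coeff_gaTrunc, coeff_avgGA, coeff_idemK, blockCoeff_le_charKer, hcard]
    by_cases hy : (y : G) ∈ L
    · rw [if_pos hy, if_pos (Subgroup.mem_subgroupOf.2 hy),
        red_inv (hM.valM_natCast_eq_one_iff.2 hL), red_natCast]
    · rw [if_neg hy, if_neg (fun h => hy (Subgroup.mem_subgroupOf.1 h)), red_zero]
  have hU := hM.isBlockUnion_le_charKer (L.subgroupOf K) (hcard ▸ hL)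
  have key : ∀ θ ∈ b, (avgGA (resK M) L * subIdem M K b = subIdem M K b ↔
      ∀ x : K, (x : G) ∈ L → θ.1 x = θ.1 1) := by
    intro θ hθ
    rw [hb.mul_subIdem_eq_iff hM hθ hm (isIdempotentElem_avgGA hL), ht, ← hU.mem_iff_lam_idemK hM]
    exact ⟨fun h x hx => θ.isCharacter.mem_charKer.1 (h hx),
      fun h x hx => θ.isCharacter.mem_charKer.2 (h x hx)⟩
  rw [← avgGA_mul_eq_iff hL]
  refine ⟨fun h θ hθ => (key θ hθ).1 h, fun h => ?_⟩
  obtain ⟨θ, hθ⟩ := hb.nonempty hM
  exact (key θ hθ).2 (h θ hθ)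

section Pi
variable {k : Type v} [Field k] {σ : Set ℕ}

/-- `O_σ(X)` as a subgroup of `G` is normalized by `N_G(X)`. -/
theorem normalizer_le_normalizer_map_piCore (σ : Set ℕ) (X : Subgroup G) :
    Subgroup.normalizer (X : Set G) ≤
      Subgroup.normalizer (((piCore σ X).map X.subtype : Subgroup G) : Set G) := by
  intro g hg
  rw [← conjSub_eq_self_iff]
  apply conjSub_eq_of_ge
  rintro _ ⟨_, ⟨y, hy, rfl⟩, rfl⟩
  have h : X = conjSub X g := (conjSub_eq_self_iff.2 hg).symm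
  refine ⟨conjSubEquiv h y, ?_, rfl⟩
  rw [← map_piCore_equiv σ (conjSubEquiv h)]
  exact ⟨y, hy, rfl⟩

omit [Finite G] in
theorem le_map_piCore {X L : Subgroup G} (hLX : L ≤ X) (hX : X ≤ Subgroup.normalizer (L : Set G))
    (h : ∀ q : ℕ, q.Prime → q ∣ Nat.card L → q ∈ σ) : L ≤ (piCore σ X).map X.subtype := by
  have hcard : Nat.card (L.subgroupOf X) = Nat.card L :=
    Nat.card_congr (Subgroup.subgroupOfEquivOfLe hLX).toEquiv
  have := le_piCore (Subgroup.normal_subgroupOf_of_le_normalizer hX) (hcard ▸ h)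
  exact fun y hy => ⟨⟨y, hLX hy⟩, this hy, rfl⟩

theorem mem_of_dvd_card_map_piCore {X : Subgroup G} {q : ℕ} (hq : q.Prime)
    (h : q ∣ Nat.card ((piCore σ X).map X.subtype)) : q ∈ σ := by
  rw [Subgroup.card_map_of_injective X.subtype_injective] at h
  exact mem_of_dvd_card_piCore hq h

/-- every normal `σ`-subgroup of `C_G(Q)` acts trivially on `f` -/
def CoreKer (σ : Set ℕ) (Q : Subgroup G) (f : k[G]) : Prop :=
  ∀ L : Subgroup G, L ≤ Subgroup.centralizer (Q : Set G) →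
    Subgroup.centralizer (Q : Set G) ≤ Subgroup.normalizer (L : Set G) →
    (∀ q : ℕ, q.Prime → q ∣ Nat.card L → q ∈ σ) → ∀ x ∈ L, MonoidAlgebra.single x (1 : k) * f = f

omit [Finite G] in
theorem CoreKer.conj {Q : Subgroup G} {f : k[G]} (h : CoreKer σ Q f) (x : G) :
    CoreKer σ (conjSub Q x) (gaConj k x f) := by
  intro L h1 h2 h3 y hy
  rw [centralizer_conjSub] at h1 h2
  refine single_mul_gaConj_eq (h (conjSub L x⁻¹) ?_ ?_ ?_ _ ?_)
  · rwa [conjSub_le_iff, inv_inv]
  · rwa [normalizer_conjSub, ← conjSub_le_iff]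
  · rwa [card_conjSub]
  · rw [mem_conjSub]; simpa [mul_assoc] using hy

theorem NSub.coreKer [Fact p.Prime] [CharP k p] (hp : p ∉ σ) {Q P : Subgroup G} {f e : k[G]}
    (h : NSub p ⊤ Q f P e) (he : CoreKer σ P e) : CoreKer σ Q f := by
  intro L h1 h2 h3 y hy
  set C := Subgroup.centralizer (Q : Set G)
  set L' := (piCore σ C).map C.subtype
  have hL' : ¬ p ∣ Nat.card L' := fun h => hp (mem_of_dvd_card_map_piCore Fact.out h)
  have hn : Subgroup.normalizer (Q : Set G) ≤ Subgroup.normalizer (L' : Set G) :=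
    (normalizer_le_normalizer_centralizer Q).trans (normalizer_le_normalizer_map_piCore σ C)
  have hPQ : Subgroup.centralizer (P : Set G) ≤ C := Subgroup.centralizer_le h.le
  refine (h.forall_single_mul_iff hL' (le_inf le_top (Subgroup.map_subtype_le _))
    (h.le_normalizer.trans hn) ((cenIn_le_normalizer _ _).trans hn)).2
    (he _ inf_le_right ?_ ?_) y (le_map_piCore h1 h2 h3 hy)
  · exact le_normalizer_inf' ((hPQ.trans (centralizer_le_normalizer' Q)).trans hn)
      Subgroup.le_normalizer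
  · exact fun q hq hd => mem_of_dvd_card_map_piCore hq
      (hd.trans (Subgroup.card_dvd_of_le inf_le_left))

theorem PairLE.coreKer [Fact p.Prime] [CharP k p] (hp : p ∉ σ) {Q P : Subgroup G} {f e : k[G]}
    (h : PairLE p ⊤ Q f P e) (he : CoreKer σ P e) : CoreKer σ Q f :=
  h.head_induction (motive := fun Q f => CoreKer σ Q f) he fun _ _ _ _ h1 _ h2 => h1.coreKer hp h2

/-- the `σ`-elements of `C_G(Q)` form a subgroup acting trivially on `f` -/
def ComplKer (σ : Set ℕ) (Q : Subgroup G) (f : k[G]) : Prop :=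
  ∃ L : Subgroup G, (∀ y, y ∈ L ↔ y ∈ Subgroup.centralizer (Q : Set G) ∧
    ∀ q : ℕ, q.Prime → q ∣ orderOf y → q ∈ σ) ∧ ∀ x ∈ L, MonoidAlgebra.single x (1 : k) * f = f

omit [Finite G] in
theorem ComplKer.conj {Q : Subgroup G} {f : k[G]} (h : ComplKer σ Q f) (x : G) :
    ComplKer σ (conjSub Q x) (gaConj k x f) := by
  obtain ⟨L, h1, h2⟩ := h
  refine ⟨conjSub L x, fun y => ?_, fun y hy => single_mul_gaConj_eq (h2 _ (mem_conjSub.1 hy))⟩
  have : orderOf (x⁻¹ * y * x) = orderOf y := by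
    have := (MulAut.conj x⁻¹).orderOf_eq y
    simpa using this
  rw [mem_conjSub, h1, centralizer_conjSub, mem_conjSub, this]

theorem NSub.complKer [Fact p.Prime] [CharP k p] (hp : p ∉ σ) {Q P : Subgroup G} {f e : k[G]}
    (h : NSub p ⊤ Q f P e) (hf : ComplKer σ Q f) : ComplKer σ P e := by
  obtain ⟨L, h1, h2⟩ := hf
  have hL : ¬ p ∣ Nat.card L := by
    intro hd
    obtain ⟨y, hy⟩ := exists_prime_orderOf_dvd_card' p hd
    exact hp (((h1 y).1 y.2).2 p Fact.out (by rw [Subgroup.orderOf_coe, hy]))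
  have hn : Subgroup.normalizer (Q : Set G) ≤ Subgroup.normalizer (L : Set G) := by
    intro g hg
    rw [Subgroup.mem_normalizer_iff]
    intro y
    have : orderOf (g * y * g⁻¹) = orderOf y := by
      have := (MulAut.conj g).orderOf_eq y
      simpa using this
    rw [h1, h1, this, (Subgroup.mem_normalizer_iff.1 (normalizer_le_normalizer_centralizer Q hg)) y]
  have hPQ : Subgroup.centralizer (P : Set G) ≤ Subgroup.centralizer (Q : Set G) :=
    Subgroup.centralizer_le h.le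
  refine ⟨L ⊓ Subgroup.centralizer (P : Set G), fun y => ?_,
    (h.forall_single_mul_iff hL (le_inf le_top fun y hy => ((h1 y).1 hy).1)
      (h.le_normalizer.trans hn) ((cenIn_le_normalizer _ _).trans hn)).1 h2⟩
  rw [Subgroup.mem_inf, h1]
  exact ⟨fun h => ⟨h.2, h.1.2⟩, fun h => ⟨⟨hPQ h.1, h.2⟩, h.1⟩⟩

theorem PairLE.complKer [Fact p.Prime] [CharP k p] (hp : p ∉ σ) {Q P : Subgroup G} {f e : k[G]}
    (h : PairLE p ⊤ Q f P e) (hf : ComplKer σ Q f) : ComplKer σ P e :=
  h.tail_induction (motive := fun Q f => ComplKer σ Q f) hf fun _ _ _ _ _ h1 h2 => h1.complKer hp h2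

end Pi

theorem IsInducedBlock.piCore_le_blockKer_of_normalizer (hM : IsPModular p M) {σ : Set ℕ}
    (hp : p ∉ σ) {B : Set (IrrCharacter G)} {D : Subgroup G} (hBD : IsDefectGroup p M B D)
    {B₁ : Set (IrrCharacter (Subgroup.normalizer (D : Set G)))}
    (hB₁ : IsInducedBlock M (Subgroup.normalizer (D : Set G)) B₁ B)
    (hker : ∀ n ∈ piCore σ (Subgroup.normalizer (D : Set G)), n ∈ blockKer B₁)
    {G₀ : Subgroup G} {B₀ : Set (IrrCharacter G₀)} (hB₀ : IsInducedBlock M G₀ B₀ B)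
    {D₀ : Subgroup G₀} (hD₀ : IsDefectGroup p M B₀ D₀)
    (hC : Subgroup.centralizer ((D₀.map G₀.subtype : Subgroup G) : Set G) ≤ G₀) :
    ∀ x ∈ piCore σ G₀, x ∈ blockKer B₀ := by
  have : Fact p.Prime := ⟨hM.1⟩
  have := hM.charP
  have hB : IsPBlock M B := hB₀.2.1
  have hb₁ : IsPBlock M B₁ := hB₁.1
  have hb₀ : IsPBlock M B₀ := hB₀.1
  have htop : (⊤ : Subgroup G) ≤ Subgroup.normalizer ((⊤ : Subgroup G) : Set G) :=
    Subgroup.le_normalizer
  have hc := hB.isBlk_top hM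
  obtain ⟨e, he⟩ := ((hB.isDefectGroup_iff hM).1 hBD).exists_isMaxPair le_rfl htop hc.mem hc.idem
  have h1 := (hM.isInducedBlock_normalizer_iff hB hBD hb₁).1 hB₁
  set N := Subgroup.normalizer (D : Set G)
  have hNker := (hb₁.forall_single_mul_subIdem_iff hM (L := (piCore σ N).map N.subtype)
    (fun h => hp (mem_of_dvd_card_map_piCore hM.1 h)) (Subgroup.map_subtype_le _)
    (Subgroup.le_normalizer.trans (normalizer_le_normalizer_map_piCore σ N))).2 (by
      rintro θ hθ x ⟨y, hy, hyx⟩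
      rw [← show y = x from Subtype.ext hyx]
      exact hker y hy θ hθ)
  have hDe : CoreKer σ D e := by
    intro L h2 h3 h4 y hy
    set C := Subgroup.centralizer (D : Set G)
    have h5 : (piCore σ C).map C.subtype ≤ (piCore σ N).map N.subtype :=
      le_map_piCore ((Subgroup.map_subtype_le _).trans (centralizer_le_normalizer' D))
        ((normalizer_le_normalizer_centralizer D).trans (normalizer_le_normalizer_map_piCore σ C))
        fun q hq h => mem_of_dvd_card_map_piCore hq h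
    have h6 := hNker y (h5 (le_map_piCore h2 h3 h4 hy))
    rw [← he.pairOf.br, ← h1, ← mul_assoc, h6]
  have hc₀ := hb₀.isBlk_subIdem hM
  obtain ⟨f, hf⟩ := ((hb₀.isDefectGroup_iff_map hM).1 hD₀).exists_isMaxPair le_rfl
    Subgroup.le_normalizer hc₀.mem hc₀.idem
  have hf' := (hB₀.indBlk hM).isPairOf le_top hc₀ hc hf.pairOf (by rwa [cenIn_top])
  obtain ⟨x, -, hx⟩ := he.exists_conj_pairLE le_rfl htop hc hf'
  have h7 := (hx.coreKer hp hDe).conj x⁻¹
  rw [conjSub_conjSub_inv, gaConj_inv_gaConj] at h7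
  set L := (piCore σ G₀).map G₀.subtype
  have hL : ¬ p ∣ Nat.card L := fun h => hp (mem_of_dvd_card_map_piCore hM.1 h)
  have hn : G₀ ≤ Subgroup.normalizer (L : Set G) :=
    Subgroup.le_normalizer.trans (normalizer_le_normalizer_map_piCore σ G₀)
  have h8 := (hf.pairOf.forall_single_mul_iff hc₀ hL (Subgroup.map_subtype_le _) hn).2
    (h7 _ inf_le_right (le_normalizer_inf' (hC.trans hn) Subgroup.le_normalizer)
      fun q hq hd => mem_of_dvd_card_map_piCore hq (hd.trans (Subgroup.card_dvd_of_le inf_le_left)))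
  have h9 := (hb₀.forall_single_mul_subIdem_iff hM hL (Subgroup.map_subtype_le _) hn).1 h8
  exact fun y hy θ hθ => h9 θ hθ y ⟨y, hy, rfl⟩

theorem IsInducedBlock.piCore_normalizer_le_blockKer (hM : IsPModular p M) {σ : Set ℕ}
    (hp : p ∉ σ) {B : Set (IrrCharacter G)} {D : Subgroup G} (hBD : IsDefectGroup p M B D)
    {B₁ : Set (IrrCharacter (Subgroup.normalizer (D : Set G)))}
    (hB₁ : IsInducedBlock M (Subgroup.normalizer (D : Set G)) B₁ B)
    {D₀ : Subgroup G} (hD₀ : IsPGroup p D₀) {H₀ : Subgroup G}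
    (hH₀ : H₀ = D₀ ⊔ Subgroup.centralizer (D₀ : Set G)) {b : Set (IrrCharacter H₀)}
    (hb : IsInducedBlock M H₀ b B)
    (hcompl : ∀ x : Subgroup.centralizer (D₀ : Set G), (∀ q : ℕ, q.Prime → q ∣ orderOf x → q ∈ σ) →
      x ∈ piCore σ (Subgroup.centralizer (D₀ : Set G)))
    (hkerb : ∀ x ∈ piCore σ (Subgroup.centralizer (D₀ : Set G)), ∀ θ ∈ b, ∀ h : H₀,
      (h : G) = x → θ.1 h = θ.1 1) :
    ∀ n ∈ piCore σ (Subgroup.normalizer (D : Set G)), n ∈ blockKer B₁ := by
  have : Fact p.Prime := ⟨hM.1⟩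
  have := hM.charP
  have hB : IsPBlock M B := hb.2.1
  have hb₁ : IsPBlock M B₁ := hB₁.1
  have hb₀ : IsPBlock M b := hb.1
  have htop : (⊤ : Subgroup G) ≤ Subgroup.normalizer ((⊤ : Subgroup G) : Set G) :=
    Subgroup.le_normalizer
  have hc := hB.isBlk_top hM
  have hD := (hB.isDefectGroup_iff hM).1 hBD
  obtain ⟨e, he⟩ := hD.exists_isMaxPair le_rfl htop hc.mem hc.idem
  have h1 := (hM.isInducedBlock_normalizer_iff hB hBD hb₁).1 hB₁
  have hf := hb₀.isBlk_subIdem hM
  set C := Subgroup.centralizer (D₀ : Set G) with hC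
  have hH₀n : H₀ ≤ Subgroup.normalizer (D₀ : Set G) :=
    hH₀ ▸ sup_le Subgroup.le_normalizer (centralizer_le_normalizer' D₀)
  have hpair : IsPairOf p ⊤ ⊤ (idemK M B) D₀ (subIdem M H₀ b) := by
    refine ⟨(isBlk_sup_centralizer_iff hD₀).1 (by rwa [← hC, ← hH₀]), le_top, ?_⟩
    exact (hM.isInducedBlock_iff_of_normal hb₀ hB hD₀ (hH₀ ▸ le_sup_left) (hH₀ ▸ le_sup_right)
      hH₀n).1 hb
  have h2 : ComplKer σ D₀ (subIdem M H₀ b) := by
    refine ⟨(piCore σ C).map C.subtype, fun y => ⟨?_, ?_⟩, ?_⟩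
    · intro hy
      exact ⟨Subgroup.map_subtype_le _ hy, fun q hq hd => mem_of_dvd_card_map_piCore hq
        (hd.trans (Subgroup.orderOf_dvd_natCard _ hy))⟩
    · rintro ⟨hy, hy'⟩
      exact ⟨⟨y, hy⟩, hcompl _ (by rwa [← Subgroup.orderOf_coe]), rfl⟩
    · refine (hb₀.forall_single_mul_subIdem_iff hM
        (fun h => hp (mem_of_dvd_card_map_piCore hM.1 h))
        ((Subgroup.map_subtype_le _).trans (hH₀ ▸ le_sup_right))
        (hH₀n.trans ((normalizer_le_normalizer_centralizer D₀).trans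
          (normalizer_le_normalizer_map_piCore σ C)))).2 ?_
      rintro θ hθ x ⟨y, hy, hyx⟩
      exact hkerb y hy θ hθ x hyx.symm
  obtain ⟨x, -, hx⟩ := he.exists_conj_pairLE le_rfl htop hc hpair
  obtain ⟨L, hL1, hL2⟩ := hx.complKer hp (h2.conj x)
  set O := (piCore σ (Subgroup.normalizer (D : Set G))).map (Subgroup.normalizer (D : Set G)).subtype
  have hO : ¬ p ∣ Nat.card O := fun h => hp (mem_of_dvd_card_map_piCore hM.1 h)
  have hON : O ≤ (Subgroup.normalizer (D : Set G)) := Subgroup.map_subtype_le _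
  have hn : (Subgroup.normalizer (D : Set G)) ≤ Subgroup.normalizer (O : Set G) :=
    Subgroup.le_normalizer.trans (normalizer_le_normalizer_map_piCore σ (Subgroup.normalizer (D : Set G)))
  have hOL : O ≤ L := by
    intro y hy
    refine (hL1 y).2 ⟨?_, fun q hq hd => mem_of_dvd_card_map_piCore hq
      (hd.trans (Subgroup.orderOf_dvd_natCard _ hy))⟩
    rw [Subgroup.mem_centralizer_iff]
    intro d hd
    have h3 : y * d * y⁻¹ * d⁻¹ ∈ D :=
      D.mul_mem ((Subgroup.mem_normalizer_iff.1 (hON hy) d).1 hd) (D.inv_mem hd)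
    have h4 : y * d * y⁻¹ * d⁻¹ ∈ O := by
      have := (Subgroup.mem_normalizer_iff.1 (hn (Subgroup.le_normalizer hd)) y⁻¹).1 (O.inv_mem hy)
      have := O.mul_mem hy this
      simpa [mul_assoc] using this
    obtain ⟨m, hm⟩ := exists_orderOf_eq_pow_of_mem hD.pgrp h3
    have h5 : orderOf (y * d * y⁻¹ * d⁻¹) = 1 :=
      Nat.eq_one_of_dvd_coprimes (((Nat.Prime.coprime_iff_not_dvd hM.1).2 hO).pow_left m)
        (hm ▸ dvd_rfl) (Subgroup.orderOf_dvd_natCard _ h4)
    rw [orderOf_eq_one_iff, mul_inv_eq_one, mul_inv_eq_iff_eq_mul] at h5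
    exact h5.symm
  have h6 : avgGA (resK M) O * subIdem M (Subgroup.normalizer (D : Set G)) B₁ = subIdem M (Subgroup.normalizer (D : Set G)) B₁ := by
    rw [h1, he.brGA_eq_orbSum le_rfl htop hc]
    exact mul_orbSum_eq (isFixedGA_avgGA (inf_le_right.trans hn))
      ((avgGA_mul_eq_iff hO).2 fun y hy => hL2 y (hOL hy))
  have h7 := (hb₁.forall_single_mul_subIdem_iff hM hO hON hn).1 ((avgGA_mul_eq_iff hO).1 h6)
  exact fun y hy θ hθ => h7 θ hθ y ⟨y, hy, rfl⟩

end Cfsg
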