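import Cfsg.Agent.Blk.Defect

/-! Blocks of defect `d` are separated by the `p`-regular classes of defect `d`. -/

set_option autoImplicit false

namespace Cfsg

open scoped ComplexConjugate MonoidAlgebra

universe u

variable {G : Type u} [Group G] [Finite G] {p : ℕ} {M : Ideal AlgInt}

theorem IsPBlock.defect_le_of_coeff_ne_zero (hM : IsPModular p M) {B : Set (IrrCharacter G)}
    (hB : IsPBlock M B) {g : G} (hg : (idemK M B).coeff g ≠ 0) : ¬ p ∣ orderOf g ∧
      (Nat.card (Subgroup.centralizer ({g} : Set G))).factorization p ≤ blockDefect p B := by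
  rw [coeff_idemK] at hg
  constructor
  · intro h
    rw [(hB.isBlockUnion hM).blockCoeff_eq_zero hM h, red_zero] at hg
    exact hg rfl
  · have := hB.valM_blockCoeff_mul_le hM g
    rw [red_ne_zero_iff.1 hg, one_mul] at this
    exact hM.valM_p_pow_le_iff.1 this

theorem IsPBlock.defect_le_of_red_centralChar_ne_zero (hM : IsPModular p M)
    {B : Set (IrrCharacter G)} (hB : IsPBlock M B) {ψ : IrrCharacter G} (hψ : ψ ∈ B) {g : G}
    (hg : red M (centralChar ψ.1 g) ≠ 0) :
    blockDefect p B ≤ (Nat.card (Subgroup.centralizer ({g} : Set G))).factorization p := by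
  have := Fact.mk hM.prime
  obtain ⟨χ, hχ, h0⟩ := exists_blockHeight_eq_zero (hB.nonempty hM) p
  rw [← lam_classSum, hB.lam_eq hM hψ hχ, lam_classSum] at hg
  have h1 := hM.valM_centralChar_mul χ g
  rw [red_ne_zero_iff.1 hg, one_mul] at h1
  have h2 := hM.valM_p_pow_le_iff.1 (h1.le.trans
    (mul_le_of_le_one_right' (mem_valO_iff.1 (χ.mem_valO g))))
  have h3 := factorization_charDegree_eq (p := p) hχ
  have h4 := factorization_card_eq_centralizer_add p g
  omega

open Classical in
/-- `λ_ψ(e_B)` only involves the `p`-regular classes of defect `d` if both blocks have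
defect `d` -/
theorem IsPBlock.lam_idemK_eq_sum_filter [Fintype (ConjClasses G)] (hM : IsPModular p M)
    {B B' : Set (IrrCharacter G)} (hB : IsPBlock M B) (hB' : IsPBlock M B') {d : ℕ}
    (hd : blockDefect p B = d) (hd' : blockDefect p B' = d) {ψ : IrrCharacter G} (hψ : ψ ∈ B') :
    lam M ψ.1 (idemK M B) = ∑ K ∈ Finset.univ.filter (fun K : ConjClasses G =>
      ¬ p ∣ orderOf (Quotient.out K : G) ∧
      (Nat.card (Subgroup.centralizer ({Quotient.out K} : Set G))).factorization p = d),
      (idemK M B).coeff (Quotient.out K) * red M (centralChar ψ.1 (Quotient.out K)) := by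
  rw [lam_eq_sum]
  refine (Finset.sum_filter_of_ne fun K _ hK => ?_).symm
  obtain ⟨h1, h2⟩ := mul_ne_zero_iff.1 hK
  have h3 := hB.defect_le_of_coeff_ne_zero hM h1
  have h4 := hB'.defect_le_of_red_centralChar_ne_zero hM hψ h2
  exact ⟨h3.1, by omega⟩

end Cfsg
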