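import Mathlib
import Cfsg.Agent.Blk.Perfect
import Cfsg.Agent.Blk.Fong

/-! A calculus of perfect isometries with all signs `+1`: composition, inversion, Clifford
induction and Gallagher twisting. -/

set_option autoImplicit false

namespace Cfsg

open scoped ComplexConjugate MonoidAlgebra

universe u v w

variable {p : ℕ} {M : Ideal AlgInt}

section ker
variable {G : Type u} [Group G] {H : Type v} [Group H] {K : Type w} [Group K]

/-- perfectness, read in the valuation ring -/
structure IsPerfO (p : ℕ) (M : Ideal AlgInt) (μ : G → H → ℂ) : Prop where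
  left : ∀ x y, μ x y / (Nat.card (Subgroup.centralizer ({x} : Set G)) : ℂ) ∈ valO M
  right : ∀ x y, μ x y / (Nat.card (Subgroup.centralizer ({y} : Set H)) : ℂ) ∈ valO M
  sep : ∀ x y, (p ∣ orderOf x ↔ p ∣ orderOf y) ∨ μ x y = 0

theorem IsPerfO.swap {μ : G → H → ℂ} (h : IsPerfO p M μ) : IsPerfO p M (fun y x => μ x y) :=
  ⟨fun y x => h.right x y, fun y x => h.left x y, fun y x => (h.sep x y).imp_left Iff.symm⟩

theorem centralizer_singleton_inv_pc (x : G) :
    Subgroup.centralizer ({x⁻¹} : Set G) = Subgroup.centralizer ({x} : Set G) := by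
  ext g
  simp only [Subgroup.mem_centralizer_singleton_iff]
  exact ⟨fun h => (Commute.inv_right_iff.1 h : Commute g x), fun h =>
    (Commute.inv_right_iff.2 h : Commute g x⁻¹)⟩

theorem inv_card_mul_sum_mem_valO [Fintype G] {f : G → ℂ}
    (hf : ∀ g h : G, f (h * g * h⁻¹) = f g)
    (h : ∀ g, f g / (Nat.card (Subgroup.centralizer ({g} : Set G)) : ℂ) ∈ valO M) :
    (Nat.card G : ℂ)⁻¹ * ∑ g, f g ∈ valO M := by
  have := Fintype.ofFinite (ConjClasses G)
  rw [sum_eq_sum_conjClasses f hf, Finset.mul_sum]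
  refine sum_mem fun K _ => ?_
  convert h (Quotient.out K) using 1
  rw [← (Subgroup.centralizer ({Quotient.out K} : Set G)).card_mul_index, nsmul_eq_mul]
  have h1 : (Nat.card (Subgroup.centralizer ({Quotient.out K} : Set G)) : ℂ) ≠ 0 :=
    Nat.cast_ne_zero.2 Nat.card_pos.ne'
  have h2 : ((Subgroup.centralizer ({Quotient.out K} : Set G)).index : ℂ) ≠ 0 :=
    Nat.cast_ne_zero.2 Subgroup.index_ne_zero_of_finite
  push_cast
  field_simp

theorem IsPerfO.comp [Fintype H] {μ : G → H → ℂ} {ν : H → K → ℂ} (h : IsPerfO p M μ)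
    (h' : IsPerfO p M ν) (hμ : ∀ x y g, μ x (g * y * g⁻¹) = μ x y)
    (hν : ∀ y z g, ν (g * y * g⁻¹) z = ν y z) :
    IsPerfO p M (fun x z => (Nat.card H : ℂ)⁻¹ * ∑ y, μ x y * ν y⁻¹ z) := by
  have hc : ∀ x z (y g : H), μ x (g * y * g⁻¹) * ν (g * y * g⁻¹)⁻¹ z = μ x y * ν y⁻¹ z := by
    intro x z y g
    rw [hμ, show (g * y * g⁻¹)⁻¹ = g * y⁻¹ * g⁻¹ by group, hν]
  refine ⟨fun x z => ?_, fun x z => ?_, fun x z => ?_⟩
  · rw [mul_div_assoc, Finset.sum_div]
    refine inv_card_mul_sum_mem_valO (fun y g => by rw [hc]) fun y => ?_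
    have := mul_mem (h.left x y) (h'.left y⁻¹ z)
    rw [centralizer_singleton_inv_pc] at this
    convert this using 1
    ring
  · rw [mul_div_assoc, Finset.sum_div]
    refine inv_card_mul_sum_mem_valO (fun y g => by rw [hc]) fun y => ?_
    have := mul_mem (h.right x y) (h'.right y⁻¹ z)
    convert this using 1
    ring
  · by_cases hxz : p ∣ orderOf x ↔ p ∣ orderOf z
    · exact Or.inl hxz
    · right
      rw [Finset.sum_eq_zero, mul_zero]
      intro y _
      rcases h.sep x y with h1 | h1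
      · rcases h'.sep y⁻¹ z with h2 | h2
        · rw [orderOf_inv] at h2
          exact absurd (h1.trans h2) hxz
        · rw [h2, mul_zero]
      · rw [h1, zero_mul]

/-- the kernel of a block union is perfect -/
theorem IsBlockUnion.isPerfO [Finite G] (hM : IsPModular p M) {U : Set (IrrCharacter G)}
    (hU : IsBlockUnion M U) : IsPerfO p M (fun x y => ∑ χ ∈ irrFinset U, χ.1 x * χ.1 y) := by
  classical
  have := Fintype.ofFinite G
  have key : ∀ x y : G, (∑ χ ∈ irrFinset U, χ.1 x * χ.1 y) /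
      (Nat.card (Subgroup.centralizer ({x} : Set G)) : ℂ) ∈ valO M := by
    intro x y
    have h1 : ∑ z : G with IsConj x z, blockCoeff U (z * y)⁻¹ ∈ valO M :=
      sum_mem fun z _ => hU.blockCoeff_mem hM _
    convert h1 using 1
    simp only [blockCoeff_eq, IrrCharacter.apply_inv, Complex.conj_conj]
    rw [← Finset.mul_sum, Finset.sum_comm]
    simp only [← Finset.mul_sum, IrrCharacter.one_mul_sum_isConj_mul]
    rw [← (Subgroup.centralizer ({x} : Set G)).card_mul_index]
    have h1 : (Nat.card (Subgroup.centralizer ({x} : Set G)) : ℂ) ≠ 0 :=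
      Nat.cast_ne_zero.2 Nat.card_pos.ne'
    have h2 : ((Subgroup.centralizer ({x} : Set G)).index : ℂ) ≠ 0 :=
      Nat.cast_ne_zero.2 Subgroup.index_ne_zero_of_finite
    push_cast
    field_simp
  refine ⟨key, fun x y => ?_, fun x y => ?_⟩
  · simpa only [mul_comm] using key y x
  · by_cases hx : p ∣ orderOf x <;> by_cases hy : p ∣ orderOf y
    · left; simp [hx, hy]
    · right
      simpa only [IrrCharacter.apply_inv, Complex.conj_conj] using
        hU.sum_mul_conj_eq_zero_of_regular' hM hx (h := y⁻¹) (by rwa [orderOf_inv])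
    · right
      simpa only [IrrCharacter.apply_inv, Complex.conj_conj] using
        hU.sum_mul_conj_eq_zero_of_regular hM hx (h := y⁻¹) (by rwa [orderOf_inv])
    · left; simp [hx, hy]

end ker

section rel
variable {G : Type u} [Group G] [Finite G] {H : Type v} [Group H] [Finite H]
  {K : Type w} [Group K] [Finite K]

/-- a perfect isometry with all signs `+1` -/
def PerfRel (p : ℕ) (M : Ideal AlgInt) (c : Set (IrrCharacter H)) (B : Set (IrrCharacter G)) :
    Prop :=
  ∃ I : IrrCharacter H → IrrCharacter G, Set.BijOn I c B ∧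
    IsPerfO p M (fun x y => ∑ η ∈ irrFinset c, (I η).1 x * η.1 y)

variable {c : Set (IrrCharacter H)} {B : Set (IrrCharacter G)} {d : Set (IrrCharacter K)}

theorem PerfRel.isPerfectIsometry (hM : IsPModular p M) (h : PerfRel p M c B) :
    ∃ (I : IrrCharacter H → IrrCharacter G) (ε : IrrCharacter H → ℤ),
      IsPerfectIsometry p M c B I ε := by
  obtain ⟨I, hI, h⟩ := h
  refine ⟨I, fun _ => 1, hI, fun _ _ => Or.inl rfl, fun x y => ?_⟩
  rw [signedBijectionKernel_eq_sum]
  simp only [Int.cast_one, one_mul]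
  have ha : ∀ n : ℕ, IsAlgebraic ℚ ((∑ η ∈ irrFinset c, (I η).1 x * η.1 y) / (n : ℂ)) := fun n => by
    rw [div_eq_mul_inv]
    refine IsAlgebraic.mul ?_ (isAlgebraic_natCast n).inv
    exact isAlgebraic_of_isIntegral_int (IsIntegral.sum _ fun η _ =>
      ((I η).isIntegral x).mul (η.isIntegral y))
  refine ⟨hM.memLocalRing_iff.2 ⟨ha _, h.left x y⟩, hM.memLocalRing_iff.2 ⟨ha _, h.right x y⟩, ?_⟩
  exact (h.sep x y).imp_left not_congr

omit [Finite G] in
theorem PerfRel.card_eq (h : PerfRel p M c B) : Nat.card c = Nat.card B := by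
  obtain ⟨I, hI, -⟩ := h
  exact Nat.card_congr hI.equiv

theorem PerfRel.symm (h : PerfRel p M c B) : PerfRel p M B c := by
  obtain ⟨I, hI, h⟩ := h
  have : Nonempty (IrrCharacter H) := ⟨IrrCharacter.triv H⟩
  have hJ := hI.invOn_invFunOn
  refine ⟨Function.invFunOn I c, hJ.symm.bijOn hI.surjOn.mapsTo_invFunOn hI.mapsTo, ?_⟩
  convert h.swap using 3 with y x
  rw [← sum_irrFinset_bijOn hI]
  refine Finset.sum_congr rfl fun η hη => ?_
  rw [hJ.1 (mem_irrFinset.1 hη), mul_comm]

theorem inv_card_mul_sum_irr_mul_inv [Fintype H] (η ξ : IrrCharacter H) :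
    (Nat.card H : ℂ)⁻¹ * ∑ y, η.1 y * ξ.1 y⁻¹ = classInner η.1 ξ.1 := by
  simp only [IrrCharacter.apply_inv, classInner_def]

omit [Finite G] in
theorem PerfRel.trans (h : PerfRel p M d c) (h' : PerfRel p M c B) : PerfRel p M d B := by
  classical
  obtain ⟨J, hJ, h⟩ := h
  obtain ⟨I, hI, h'⟩ := h'
  have := Fintype.ofFinite H
  refine ⟨I ∘ J, hI.comp hJ, ?_⟩
  convert h'.comp h (fun x y g => by simp only [IrrCharacter.isClassFunction _ y g])
    (fun y z g => by simp only [IrrCharacter.isClassFunction _ y g]) using 3 with x z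
  have h1 : ∀ y : H, (∑ η ∈ irrFinset c, (I η).1 x * η.1 y) *
      (∑ ξ ∈ irrFinset d, (J ξ).1 y⁻¹ * ξ.1 z) =
      ∑ ξ ∈ irrFinset d, ∑ η ∈ irrFinset c, (I η).1 x * ξ.1 z * (η.1 y * (J ξ).1 y⁻¹) := by
    intro y
    rw [Finset.sum_mul_sum, Finset.sum_comm]
    exact Finset.sum_congr rfl fun _ _ => Finset.sum_congr rfl fun _ _ => by ring
  simp only [h1]
  rw [Finset.sum_comm, Finset.mul_sum]
  refine Finset.sum_congr rfl fun ξ hξ => ?_
  rw [Finset.sum_comm, Finset.mul_sum]
  simp only [← Finset.mul_sum, mul_left_comm (Nat.card H : ℂ)⁻¹, inv_card_mul_sum_irr_mul_inv,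
    IrrCharacter.classInner_eq, mul_ite, mul_one, mul_zero]
  rw [Finset.sum_ite_eq', if_pos (mem_irrFinset.2 (hJ.mapsTo (mem_irrFinset.1 hξ)))]
  rfl

omit [Finite G] in
theorem PerfRel.blockRank_le (h : PerfRel p M c B) : blockRank p B ≤ blockRank p c := by
  classical
  obtain ⟨I, hI, h⟩ := h
  have := Fintype.ofFinite H
  let L : (H → ℂ) →ₗ[ℂ] (G → ℂ) :=
    { toFun := fun θ x => (Nat.card H : ℂ)⁻¹ *
        ∑ y, (∑ η ∈ irrFinset c, (I η).1 x * η.1 y) * θ y⁻¹
      map_add' := fun θ θ' => by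
        ext x
        simp only [Pi.add_apply, mul_add, Finset.sum_add_distrib]
      map_smul' := fun a θ => by
        ext x
        simp only [Pi.smul_apply, smul_eq_mul, RingHom.id_apply, Finset.mul_sum]
        exact Finset.sum_congr rfl fun _ _ => by ring }
  have hL : ∀ θ x, L θ x = (Nat.card H : ℂ)⁻¹ *
        ∑ y, (∑ η ∈ irrFinset c, (I η).1 x * η.1 y) * θ y⁻¹ := fun _ _ => rfl
  have h1 : ∀ ξ ∈ c, L ξ.1 = (I ξ).1 := by
    intro ξ hξ
    ext x
    rw [hL]
    simp only [Finset.sum_mul]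
    rw [Finset.sum_comm, Finset.mul_sum]
    simp only [mul_assoc, ← Finset.mul_sum, mul_left_comm (Nat.card H : ℂ)⁻¹,
      inv_card_mul_sum_irr_mul_inv, IrrCharacter.classInner_eq, mul_ite, mul_one, mul_zero]
    rw [Finset.sum_ite_eq', if_pos (mem_irrFinset.2 hξ)]
  have h2 : ∀ θ, L (pRegularPart p θ) = pRegularPart p (L θ) := by
    intro θ
    ext x
    by_cases hx : p ∣ orderOf x
    · rw [pRegularPart_of_dvd hx, hL, Finset.sum_eq_zero, mul_zero]
      intro y _
      rcases h.sep x y with h3 | h3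
      · rw [pRegularPart_of_dvd (by rw [orderOf_inv]; exact h3.1 hx), mul_zero]
      · rw [h3, zero_mul]
    · rw [pRegularPart_of_not_dvd hx, hL, hL]
      congr 1
      refine Finset.sum_congr rfl fun y _ => ?_
      rcases h.sep x y with h3 | h3
      · rw [pRegularPart_of_not_dvd (by rw [orderOf_inv]; exact fun h4 => hx (h3.2 h4))]
      · rw [h3, zero_mul, zero_mul]
  unfold blockRank
  refine le_trans (Submodule.finrank_mono ?_) (Submodule.finrank_map_le L _)
  rw [Submodule.span_le]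
  rintro _ ⟨χ, hχ, rfl⟩
  obtain ⟨η, hη, rfl⟩ := hI.surjOn hχ
  exact ⟨pRegularPart p η.1, Submodule.subset_span ⟨η, hη, rfl⟩, by rw [h2, h1 η hη]⟩

theorem PerfRel.blockRank_eq (h : PerfRel p M c B) : blockRank p c = blockRank p B :=
  le_antisymm h.symm.blockRank_le h.blockRank_le

end rel

section ind

theorem IsPerfO.indFun {G : Type u} [Group G] [Fintype G] {T : Subgroup G} {K : Type v} [Group K]
    {ν : T → K → ℂ} (h : IsPerfO p M ν) (hν : ∀ y, IsClassFunction T (fun t => ν t y)) :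
    IsPerfO p M (fun x y => indFun T (fun t => ν t y) x) := by
  classical
  have := Fintype.ofFinite T
  have := Fintype.ofFinite (G ⧸ T)
  refine ⟨fun x y => ?_, fun x y => ?_, fun x y => ?_⟩
  · have h1 : (Nat.card (Subgroup.centralizer ({x} : Set G)) : ℂ) ≠ 0 :=
      Nat.cast_ne_zero.2 Nat.card_pos.ne'
    rw [indFun_eq_card_centralizer_mul, div_eq_mul_inv (Nat.card _ : ℂ), mul_assoc,
      mul_div_cancel_left₀ _ h1, Finset.sum_filter]
    refine inv_card_mul_sum_mem_valO (fun t g => ?_) fun t => ?_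
    · have h2 : IsConj x ((g * t * g⁻¹ : T) : G) ↔ IsConj x (t : G) :=
        ⟨fun h => h.trans (isConj_iff.2 ⟨(g : G)⁻¹, by simp [mul_assoc]⟩),
          fun h => h.trans (isConj_iff.2 ⟨(g : G), by simp⟩)⟩
      simp only [h2, hν y t g]
    · split_ifs
      · exact h.left t y
      · rw [zero_div]; exact zero_mem _
  · rw [indFun_eq_sum_quotient T (hν y), Finset.sum_div]
    refine sum_mem fun q _ => ?_
    rw [extendByZero_eq_dite]
    split_ifs
    · exact h.right _ y
    · rw [zero_div]; exact zero_mem _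
  · by_cases hxy : p ∣ orderOf x ↔ p ∣ orderOf y
    · exact Or.inl hxy
    · refine Or.inr (indFun_eq_zero_of_forall_isConj T _ fun t ht => ?_)
      refine (h.sep t y).resolve_left fun h1 => hxy ?_
      obtain ⟨c, hc⟩ := ht
      rwa [← Subgroup.orderOf_coe, ← hc.orderOf_eq] at h1

theorem IsBlockUnion.perfRel_indFun (hM : IsPModular p M) {G : Type u} [Group G] [Fintype G]
    {T : Subgroup G} {b : Set (IrrCharacter T)} (hb : IsBlockUnion M b)
    {B : Set (IrrCharacter G)} {I : IrrCharacter T → IrrCharacter G} (hI : Set.BijOn I b B)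
    (h : ∀ ψ ∈ b, (I ψ).1 = indFun T ψ.1) : PerfRel p M b B := by
  refine ⟨I, hI, ?_⟩
  convert (hb.isPerfO hM).indFun (fun y t g => by
    simp only [IrrCharacter.isClassFunction _ t g]) using 3 with x y
  rw [indFun_sum']
  refine Finset.sum_congr rfl fun ψ hψ => ?_
  simp only [mul_comm _ (ψ.1 y)]
  rw [indFun_const_mul, h ψ (mem_irrFinset.1 hψ)]

end ind

section twist
variable {Γ : Type u} [Group Γ] [Finite Γ] {G : Type v} [Group G] {E : Type w} [Group E]

omit [Finite Γ] in
theorem card_centralizer_dvd_mul_card_ker (b : Γ →* E) (x : Γ) :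
    Nat.card (Subgroup.centralizer ({x} : Set Γ)) ∣
      Nat.card (Subgroup.centralizer ({b x} : Set E)) * Nat.card b.ker := by
  let C := Subgroup.centralizer ({x} : Set Γ)
  let f : C →* Subgroup.centralizer ({b x} : Set E) := (b.comp C.subtype).codRestrict _ fun c => by
    have := Subgroup.mem_centralizer_singleton_iff.1 c.2
    rw [Subgroup.mem_centralizer_singleton_iff]
    simp only [MonoidHom.comp_apply, Subgroup.subtype_apply, ← map_mul, this]
  rw [← f.ker.card_mul_index, mul_comm, Subgroup.index_ker]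
  refine mul_dvd_mul (Subgroup.card_subgroup_dvd_card _) ?_
  exact Subgroup.card_dvd_of_injective ((C.subtype.comp f.ker.subtype).codRestrict b.ker
    fun c => congrArg Subtype.val c.2) fun _ _ h =>
      Subtype.ext (Subtype.ext (congrArg (Subtype.val : b.ker → Γ) h))

theorem card_centralizer_map_dvd_of_central (a : Γ →* G) (ha : Function.Surjective a)
    (hZ : a.ker ≤ Subgroup.center Γ) (x : Γ) :
    Nat.card (Subgroup.centralizer ({a x} : Set G)) ∣
      Nat.card (Subgroup.centralizer ({x} : Set Γ)) := by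
  let D := (Subgroup.centralizer ({a x} : Set G)).comap a
  have hD : ∀ d : D, (d : Γ) * x * (d : Γ)⁻¹ * x⁻¹ ∈ a.ker := fun d => by
    have := Subgroup.mem_centralizer_singleton_iff.1 d.2
    simp only [MonoidHom.mem_ker, map_mul, map_inv, this, mul_inv_cancel_right, mul_inv_cancel]
  let f : D →* a.ker :=
    { toFun := fun d => ⟨_, hD d⟩
      map_one' := Subtype.ext (by simp)
      map_mul' := fun d e => Subtype.ext (by
        have h1 := Subgroup.mem_center_iff.1 (hZ (hD e)) ((d : Γ) * x * (d : Γ)⁻¹ * x⁻¹)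
        have h2 := Subgroup.mem_center_iff.1 (hZ (hD e)) (d : Γ)
        change (d * e : Γ) * x * (d * e : Γ)⁻¹ * x⁻¹ =
          (d * x * (d : Γ)⁻¹ * x⁻¹) * (e * x * (e : Γ)⁻¹ * x⁻¹)
        rw [h1]
        calc (d * e : Γ) * x * (d * e : Γ)⁻¹ * x⁻¹
            = d * (e * x * (e : Γ)⁻¹ * x⁻¹) * (x * (d : Γ)⁻¹ * x⁻¹) := by group
          _ = _ := by rw [h2]; group) }
  have h1 : Nat.card f.ker = Nat.card (Subgroup.centralizer ({x} : Set Γ)) := by
    refine Nat.card_congr
      { toFun := fun d => ⟨d.1.1, ?_⟩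
        invFun := fun c => ⟨⟨c.1, ?_⟩, ?_⟩
        left_inv := fun _ => rfl
        right_inv := fun _ => rfl }
    · have h : (d.1.1 : Γ) * x * (d.1.1 : Γ)⁻¹ * x⁻¹ = 1 := congrArg Subtype.val d.2
      rw [Subgroup.mem_centralizer_singleton_iff]
      rwa [mul_inv_eq_one, mul_inv_eq_iff_eq_mul] at h
    · have := Subgroup.mem_centralizer_singleton_iff.1 c.2
      rw [Subgroup.mem_comap, Subgroup.mem_centralizer_singleton_iff, ← map_mul, this, map_mul]
    · have := Subgroup.mem_centralizer_singleton_iff.1 c.2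
      exact Subtype.ext (by
        change (c.1 : Γ) * x * (c.1 : Γ)⁻¹ * x⁻¹ = 1
        rw [this]; group)
  have h2 : Nat.card D = Nat.card a.ker * Nat.card (Subgroup.centralizer ({a x} : Set G)) := by
    let g : D →* Subgroup.centralizer ({a x} : Set G) := a.subgroupComap _
    have hg : Function.Surjective g := a.subgroupComap_surjective_of_surjective _ ha
    rw [← g.ker.card_mul_index, Subgroup.index_ker, MonoidHom.range_eq_top.2 hg, Subgroup.card_top]
    congr 1
    exact Nat.card_congr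
      { toFun := fun d => ⟨d.1.1, congrArg Subtype.val d.2⟩
        invFun := fun z => ⟨⟨z.1, by
          rw [Subgroup.mem_comap, MonoidHom.mem_ker.1 z.2]; exact one_mem _⟩, Subtype.ext z.2⟩
        left_inv := fun _ => rfl
        right_inv := fun _ => rfl }
  have h3 : Nat.card D ∣ Nat.card a.ker * Nat.card (Subgroup.centralizer ({x} : Set Γ)) := by
    rw [← f.ker.card_mul_index, mul_comm, Subgroup.index_ker, h1]
    exact mul_dvd_mul_right (Subgroup.card_subgroup_dvd_card _) _
  rw [h2] at h3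
  exact Nat.dvd_of_mul_dvd_mul_left Nat.card_pos h3

/-- Gallagher twisting through a central extension is a perfect isometry -/
theorem IsBlockUnion.perfRel_twist (hM : IsPModular p M) [Finite G] [Finite E] {a : Γ →* G}
    (ha : Function.Surjective a) {b : Γ →* E} (hb : Function.Surjective b)
    (hZ : a.ker ≤ Subgroup.center Γ) (hap : ¬ p ∣ Nat.card a.ker) (hbp : ¬ p ∣ Nat.card b.ker)
    {τ : Γ → ℂ} (hτ : IsCharacter Γ τ) (hirr : IsIrrCharacter b.ker (fun n => τ n))
    {l : a.ker → ℂ} (hl : ∀ z, l z ≠ 0) (hτl : ∀ (z : a.ker) x, τ (z * x) = (l z)⁻¹ * τ x)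
    {V : Set (IrrCharacter E)} (hV : IsBlockUnion M V)
    (hVl : ∀ β, β ∈ V ↔ ∀ (z : a.ker) e, β.1 (b z * e) = l z * β.1 e) [Fintype b.ker]
    {U : Set (IrrCharacter G)}
    (hU : ∀ χ, χ ∈ U ↔ classInner (fun n : b.ker => χ.1 (a n)) (fun n => τ n) ≠ 0) :
    PerfRel p M V U := by
  have := hM.fact_prime
  have h1 : ∀ β ∈ V, ∃ χ : IrrCharacter G, ∀ x, χ.1 (a x) = β.1 (b x) * τ x := by
    intro β hβ
    have h2 := gallagher_isIrr' b hb rfl hτ hirr β
    obtain ⟨ψ, hψ, h3⟩ := h2.isCharacter.exists_comp_eq a ha (fun z hz x => by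
      have h4 := (hVl β).1 hβ ⟨z, hz⟩ (b x)
      have h5 := hτl ⟨z, hz⟩ x
      simp only at h4 h5
      simp only [map_mul]
      rw [h4, h5, mul_mul_mul_comm, mul_inv_cancel₀ (hl _), one_mul])
    exact ⟨⟨ψ, hψ.isIrr_of_comp a (by simpa only [h3] using h2)⟩, h3⟩
  have : Nonempty (IrrCharacter G) := ⟨IrrCharacter.triv G⟩
  choose! I hI using h1
  refine ⟨I, ⟨fun β hβ => ?_, fun β hβ γ hγ h => ?_, fun χ hχ => ?_⟩, ?_⟩
  · rw [hU]
    have h2 : ∀ n : b.ker, (I β).1 (a n) = β.1 1 * τ n := fun n => by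
      rw [hI β hβ, MonoidHom.mem_ker.1 n.2]
    simp only [h2]
    rw [classInner_const_mul_left, IrrCharacter.classInner_self ⟨_, hirr⟩, mul_one]
    exact β.one_ne_zero
  · exact gallagher_inj' b hb rfl hτ hirr fun x => by rw [← hI β hβ, ← hI γ hγ, h]
  · obtain ⟨β, hβ⟩ := gallagher_surj' b hb rfl hτ (θ := ⟨_, hirr⟩) (fun _ => rfl)
      (χ.comap a ha) ((hU χ).1 hχ)
    have h2 : ∀ x, χ.1 (a x) = β.1 (b x) * τ x := congrFun hβ
    have h3 : β ∈ V := by
      refine (hVl β).2 fun z e => ?_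
      obtain ⟨x, rfl⟩ := hb e
      obtain ⟨n, hn, h0⟩ := exists_ne_zero_on_coset hτ hirr x
      have h4 := h2 (z * (x * n))
      rw [map_mul, MonoidHom.mem_ker.1 z.2, one_mul, h2, hτl, ← mul_assoc, mul_left_inj' h0] at h4
      simp only [map_mul, MonoidHom.mem_ker.1 hn, mul_one] at h4
      rw [h4, mul_left_comm, mul_inv_cancel₀ (hl _), mul_one]
    refine ⟨β, h3, Subtype.ext (funext fun g => ?_)⟩
    obtain ⟨x, rfl⟩ := ha g
    rw [hI β h3, h2]
  · have hν := hV.isPerfO hM
    have h2 : ∀ x e, ∑ β ∈ irrFinset V, (I β).1 (a x) * β.1 e =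
        τ x * ∑ β ∈ irrFinset V, β.1 (b x) * β.1 e := fun x e => by
      rw [Finset.mul_sum]
      exact Finset.sum_congr rfl fun β hβ => by rw [hI β (mem_irrFinset.1 hβ)]; ring
    refine ⟨fun g e => ?_, fun g e => ?_, fun g e => ?_⟩ <;> obtain ⟨x, rfl⟩ := ha g <;>
      simp only [h2]
    · have h3 : ((Nat.card (Subgroup.centralizer ({b x} : Set E)) : ℂ) /
          (Nat.card (Subgroup.centralizer ({a x} : Set G)) : ℂ)) ∈ valO M := by
        obtain ⟨k, hk⟩ := (card_centralizer_map_dvd_of_central a ha hZ x).trans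
          (card_centralizer_dvd_mul_card_ker b x)
        have h4 : (Nat.card (Subgroup.centralizer ({a x} : Set G)) : ℂ) ≠ 0 :=
          Nat.cast_ne_zero.2 Nat.card_pos.ne'
        have h5 : (Nat.card b.ker : ℂ) ≠ 0 := Nat.cast_ne_zero.2 Nat.card_pos.ne'
        have h6 := mul_mem (natCast_mem_valO (M := M) k) (hM.inv_natCast_mem hbp)
        convert h6 using 1
        have h7 := congrArg (Nat.cast : ℕ → ℂ) hk
        push_cast at h7
        field_simp
        linear_combination h7
      have h4 : (Nat.card (Subgroup.centralizer ({b x} : Set E)) : ℂ) ≠ 0 :=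
        Nat.cast_ne_zero.2 Nat.card_pos.ne'
      convert mul_mem (hτ.mem_valO x) (mul_mem (hν.left (b x) e) h3) using 1
      field_simp
    · rw [mul_div_assoc]
      exact mul_mem (hτ.mem_valO x) (hν.right (b x) e)
    · rw [dvd_orderOf_map_iff a hap, ← dvd_orderOf_map_iff b hbp]
      exact (hν.sep (b x) e).imp_right fun h => by rw [h, mul_zero]

end twist

end Cfsg
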