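import Mathlib
import Cfsg.Agent.Blk.PerfComp
import Cfsg.Agent.Blk.Cover
import Cfsg.Agent.Mod.DadeExt

/-! Blocks of `p`-solvable groups with abelian defect groups are perfectly isometric to their
Brauer correspondents (Dade). -/

set_option autoImplicit false

namespace Cfsg

open scoped ComplexConjugate MonoidAlgebra

universe u v w

variable {p : ℕ} {M : Ideal AlgInt}

section idem
variable {G : Type u} [Group G] [Finite G] {N : Type v} [Group N] [Finite N] {ι : N →* G}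
  {θ : IrrCharacter N}

theorem blockCoeff_singleton' (θ : IrrCharacter N) (n : N) :
    blockCoeff {θ} n = (Nat.card N : ℂ)⁻¹ * (θ.1 1 * conj (θ.1 n)) := by
  have : irrFinset ({θ} : Set (IrrCharacter N)) = {θ} := by
    ext χ; simp
  rw [blockCoeff_eq, this, Finset.sum_singleton]

omit [Finite G] in
theorem gaPush_idemK_singleton_mem_center (hι : Function.Injective ι)
    (hinv : ∀ (g : G) (n : N), ∃ n', ι n' = g * ι n * g⁻¹ ∧ θ.1 n' = θ.1 n) :
    gaPush (resK M) ι (idemK M {θ}) ∈ Subalgebra.center (resK M) (resK M)[G] := by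
  rw [mem_center_iff_coeff]
  intro x g
  by_cases hx : x ∈ ι.range
  · obtain ⟨n, rfl⟩ := hx
    obtain ⟨n', h1, h2⟩ := hinv g n
    rw [← h1, coeff_gaPush_of_injective hι, coeff_gaPush_of_injective hι, coeff_idemK, coeff_idemK,
      blockCoeff_singleton', blockCoeff_singleton', h2]
  · rw [coeff_gaPush_of_notMem _ hx, coeff_gaPush_of_notMem]
    rintro ⟨n, hn⟩
    obtain ⟨n', h1, -⟩ := hinv g⁻¹ n
    exact hx ⟨n', by rw [h1, hn]; group⟩

omit [Finite G] in
/-- the Brauer image of the idempotent of `θ` is that of the Glauberman correspondent -/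
theorem IsPModular.exists_glauberman_idem (hM : IsPModular p M) (hp : ¬ p ∣ Nat.card N)
    (hι : Function.Injective ι) {P : Subgroup G} {C : Type w} [Group C] [Finite C] {f : C →* N}
    (hf : Function.Injective f) (hC1 : ∀ c, ι (f c) ∈ Subgroup.centralizer (P : Set G))
    (hC2 : ∀ n, ι n ∈ Subgroup.centralizer (P : Set G) → n ∈ f.range) {β : IrrCharacter C}
    (hβ : GlCorr p f θ.1 β.1) :
    ∃ w ∈ Subalgebra.center (resK M) (resK M)[C],
      gaPush (resK M) (ι.comp f) w = brGA (resK M) P (gaPush (resK M) ι (idemK M {θ})) ∧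
      ∀ η : IrrCharacter C, lam M η.1 w ≠ 0 ↔ η = β := by
  have := Fintype.ofFinite C
  have hU : IsBlockUnion M ({θ} : Set (IrrCharacter N)) := hM.isBlockUnion_of_not_dvd hp _
  let wO : (valO M)[C] := gaOfFun fun c => (idemO M {θ}).coeff (f c)
  have hwO : wO ∈ Subalgebra.center (valO M) (valO M)[C] := by
    rw [mem_center_iff_coeff]
    intro c d
    simp only [wO, coeff_gaOfFun, map_mul, map_inv]
    exact mem_center_iff_coeff.1 (idemO_mem_center _) _ _
  refine ⟨toK M C wO, toK_mem_center hwO, ga_ext fun x => ?_, fun η => ?_⟩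
  · by_cases hx : x ∈ (ι.comp f).range
    · obtain ⟨c, rfl⟩ := hx
      rw [coeff_gaPush_of_injective (φ := ι.comp f) (hι.comp hf), MonoidHom.comp_apply,
        coeff_brGA_of_mem _ (hC1 c), coeff_gaPush_of_injective hι, ← toK_idemO, coeff_toK,
        coeff_toK]
      rfl
    · rw [coeff_gaPush_of_notMem _ hx]
      by_cases hx' : x ∈ Subgroup.centralizer (P : Set G)
      · rw [coeff_brGA_of_mem _ hx', coeff_gaPush_of_notMem]
        rintro ⟨n, rfl⟩
        obtain ⟨c, rfl⟩ := hC2 n hx'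
        exact hx ⟨c, rfl⟩
      · rw [coeff_brGA_of_notMem _ hx']
  · have hpC : ¬ p ∣ Nat.card C := fun h => hp (h.trans (Subgroup.card_dvd_of_injective f hf))
    have h1 : ∀ m : ℤ, classInner (fun c => θ.1 (f c)) η.1 = m →
        (lam M η.1 (toK M C wO) ≠ 0 ↔ ¬ (p : ℤ) ∣ m) := by
      intro m hm
      have h2 : omega η.1 (toC M C wO) =
          (Nat.card N : ℂ)⁻¹ * θ.1 1 * Nat.card C * (η.1 1)⁻¹ * m := by
        have h3 : classInner η.1 (fun c => θ.1 (f c)) = m := by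
          rw [← conj_classInner, hm, map_intCast]
        have h4 : (Nat.card C : ℂ) ≠ 0 := Nat.cast_ne_zero.2 Nat.card_pos.ne'
        have h5 : ∀ c, (toC M C wO).coeff c = (Nat.card N : ℂ)⁻¹ * (θ.1 1 * conj (θ.1 (f c))) :=
          fun c => by rw [← blockCoeff_singleton', ← hU.coe_coeff_idemO hM]; rfl
        rw [omega, charAlg_eq_sum, ← h3, classInner_def]
        simp only [h5, mul_assoc, ← Finset.mul_sum]
        simp only [mul_comm (η.1 _) (conj _)]
        field_simp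
      rw [lam_toK η hwO, red_ne_zero_iff, h2]
      simp only [map_mul, map_inv₀, θ.one_eq_charDegree, η.one_eq_charDegree]
      rw [hM.valM_natCast_eq_one_iff.2 hp, hM.valM_natCast_eq_one_iff.2 hpC,
        hM.valM_natCast_eq_one_iff.2 fun h => hp (h.trans θ.charDegree_dvd_card),
        hM.valM_natCast_eq_one_iff.2 fun h => hpC (h.trans η.charDegree_dvd_card),
        ← hM.valM_intCast_lt_one_iff]
      simp only [inv_one, one_mul, not_lt]
      exact ⟨fun h => h.ge, fun h => le_antisymm (mem_valO_iff.1 (intCast_mem_valO m)) h⟩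
    obtain ⟨ε, hε, ⟨k, hk⟩, hk'⟩ := hβ.exists_classInner
    constructor
    · intro h
      by_contra hne
      obtain ⟨k', hk'⟩ := hk' η hne
      exact (h1 _ hk').1 h (dvd_mul_right _ _)
    · rintro rfl
      exact (h1 _ hk).2 (not_dvd_sign_add_mul hM.prime hε k)

/-- the Brauer correspondent of a block over `θ` lies over the Glauberman correspondent -/
theorem IsPModular.brauer_corr_over_glauberman (hM : IsPModular p M) (hp : ¬ p ∣ Nat.card N)
    [Fintype N] (hι : Function.Injective ι)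
    (hinv : ∀ (g : G) (n : N), ∃ n', ι n' = g * ι n * g⁻¹ ∧ θ.1 n' = θ.1 n) {P : Subgroup G}
    (hP : IsPGroup p P) {C : Type w} [Group C] [Fintype C] {f : C →* N}
    (hf : Function.Injective f) (hC1 : ∀ c, ι (f c) ∈ Subgroup.centralizer (P : Set G))
    (hC2 : ∀ n, ι n ∈ Subgroup.centralizer (P : Set G) → n ∈ f.range) {β : IrrCharacter C}
    (hβ : GlCorr p f θ.1 β.1) {H : Type*} [Group H] [Finite H] {φ : H →* G}
    (hφ : Function.Injective φ) (hφP : ∀ h, φ h ∈ Subgroup.normalizer (P : Set G)) {κ : C →* H}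
    (hκ : ∀ c, φ (κ c) = ι (f c)) {B : Set (IrrCharacter G)} (hB : IsPBlock M B)
    (hBθ : B ⊆ irrOver ι θ.1) {c : Set (IrrCharacter H)} (hc : IsBlockUnion M c)
    (hcB : gaPush (resK M) φ (idemK M c) = brGA (resK M) P (idemK M B)) :
    c ⊆ irrOver κ β.1 ∧ (B = irrOver ι θ.1 → c = irrOver κ β.1) := by
  have := hM.fact_prime
  have := hM.charP
  have hU : IsBlockUnion M ({θ} : Set (IrrCharacter N)) := hM.isBlockUnion_of_not_dvd hp _
  obtain ⟨w, hw, hw1, hw2⟩ := hM.exists_glauberman_idem hp hι hf hC1 hC2 hβ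
  have he := gaPush_idemK_singleton_mem_center (M := M) hι hinv
  have hei : IsIdempotentElem (gaPush (resK M) ι (idemK M {θ})) :=
    (hU.isIdempotentElem_idemK hM).map _
  have hκi : Function.Injective κ := fun a b h => hf (hι (by rw [← hκ, ← hκ, h]))
  have hcomp : ι.comp f = φ.comp κ := MonoidHom.ext fun c => (hκ c).symm
  rw [hcomp, ← gaPush_gaPush] at hw1
  have hz : gaPush (resK M) κ w ∈ Subalgebra.center (resK M) (resK M)[H] := by
    rw [mem_center_iff_isFixedGA_top, ← isFixedGA_gaPush_iff hφ, hw1]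
    refine ((mem_center_iff_isFixedGA_top.1 he).mono le_top).brGA ?_
    rintro _ ⟨h, -, rfl⟩
    exact hφP h
  have hlam : ∀ χ : IrrCharacter G, ∀ θ' : IrrCharacter N,
      classInner (fun n => χ.1 (ι n)) θ'.1 ≠ 0 →
      lam M χ.1 (gaPush (resK M) ι (idemK M {θ})) = lam M θ'.1 (idemK M {θ}) :=
    fun χ θ' h => lam_gaPush_of_over hι h (idemK_mem_center _) he
  have hunder : ∀ ξ : IrrCharacter H, ∃ η : IrrCharacter C,
      classInner (fun x => ξ.1 (κ x)) η.1 ≠ 0 := fun ξ =>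
    (ξ.isCharacter.comp κ).exists_irr_constituent fun h =>
      ξ.one_ne_zero (by simpa using congrFun h 1)
  have hsub : c ⊆ irrOver κ β.1 := by
    obtain ⟨χ, hχ⟩ := hB.nonempty hM
    have h1 := (hB.mul_idemK_eq_iff hM hχ he hei).2 (by
      rw [hlam χ θ (hBθ hχ), hU.lam_idemK_of_mem hM rfl])
    have h2 : gaPush (resK M) κ w * idemK M c = idemK M c := by
      apply gaPush_injective hφ
      rw [map_mul, hw1, hcB, ← brGA_mul hP ((mem_center_iff_isFixedGA_top.1 he).mono le_top)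
        ((mem_center_iff_isFixedGA_top.1 (idemK_mem_center B)).mono le_top), h1]
    intro ξ hξ
    obtain ⟨η, hη⟩ := hunder ξ
    have h3 := congrArg (lam M ξ.1) h2
    rw [lam_mul ξ hz (idemK_mem_center c), hc.lam_idemK_of_mem hM hξ, mul_one,
      lam_gaPush_of_over hκi hη hw hz] at h3
    obtain rfl := (hw2 η).1 (h3.trans_ne one_ne_zero)
    exact hη
  refine ⟨hsub, fun hBe => Set.Subset.antisymm hsub fun ξ hξ => ?_⟩
  have h1 : gaPush (resK M) ι (idemK M {θ}) = idemK M B := by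
    refine hM.idem_eq_of_lam_eq he hei (idemK_mem_center B) (hB.isIdempotentElem_idemK hM)
      fun χ => ?_
    by_cases hχ : χ ∈ B
    · rw [hlam χ θ (hBθ hχ), hU.lam_idemK_of_mem hM rfl, (hB.isBlockUnion hM).lam_idemK_of_mem hM hχ]
    · obtain ⟨θ', hθ'⟩ := (χ.isCharacter.comp ι).exists_irr_constituent fun h =>
        χ.one_ne_zero (by simpa using congrFun h 1)
      rw [hlam χ θ' hθ', (hB.isBlockUnion hM).lam_idemK_of_notMem hM hχ,
        hU.lam_idemK_of_notMem hM]
      rintro rfl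
      exact hχ (hBe ▸ hθ')
  have h2 : gaPush (resK M) κ w = idemK M c := by
    apply gaPush_injective hφ
    rw [hw1, hcB, h1]
  by_contra hξc
  have h3 := (hw2 β).2 rfl
  rw [← lam_gaPush_of_over hκi hξ hw hz, h2, hc.lam_idemK_of_notMem hM hξc] at h3
  exact h3 rfl

end idem

section lift
variable {Γ : Type u} [Group Γ] [Finite Γ] {G : Type v} [Group G] [Finite G]

omit [Finite G] [Finite Γ] in
theorem eq_one_of_pow_eq_one_of_mem_not_dvd [hp : Fact p.Prime] {Z : Subgroup Γ}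
    (hZ : ¬ p ∣ Nat.card Z) {z : Γ} (hz : z ∈ Z) {k : ℕ} (h : z ^ p ^ k = 1) : z = 1 := by
  rw [← orderOf_eq_one_iff]
  exact (Nat.Coprime.pow_left k ((Nat.Coprime.coprime_dvd_right (Z.orderOf_dvd_natCard hz)
      ((Nat.Prime.coprime_iff_not_dvd hp.out).2 hZ)))).symm.eq_one_of_dvd
    (orderOf_dvd_of_pow_eq_one h)

/-- lifting an abelian `p`-subgroup through a central `p'`-extension -/
theorem exists_lift_abelian_pGroup [hp : Fact p.Prime] {a : Γ →* G} (ha : Function.Surjective a)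
    (hZ : a.ker ≤ Subgroup.center Γ) (hap : ¬ p ∣ Nat.card a.ker) {P : Subgroup G}
    (hP : IsPGroup p P) (hab : ∀ u ∈ P, ∀ v ∈ P, u * v = v * u) :
    ∃ Q : Subgroup Γ, IsPGroup p Q ∧ (∀ u ∈ Q, ∀ v ∈ Q, u * v = v * u) ∧ (∀ u ∈ Q, a u ∈ P) ∧
      (∀ u ∈ P, ∃ y ∈ Q, a y = u) ∧
      ∀ x, a x ∈ Subgroup.normalizer (P : Set G) → x ∈ Subgroup.normalizer (Q : Set Γ) := by
  have hc : ∀ x y : Γ, a x ∈ P → a y ∈ P → ∀ k, x ^ p ^ k = 1 → Commute x y := by
    intro x y hx hy k hk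
    have h1 : y * x * y⁻¹ * x⁻¹ ∈ a.ker := by
      simp only [MonoidHom.mem_ker, map_mul, map_inv, hab _ hy _ hx, mul_inv_cancel_right,
        mul_inv_cancel]
    have h2 : Commute (y * x * y⁻¹ * x⁻¹) x := (Subgroup.mem_center_iff.1 (hZ h1) x).symm
    have h3 : (y * x * y⁻¹ * x⁻¹) ^ p ^ k = 1 := by
      have h4 : (y * x * y⁻¹ * x⁻¹ * x) ^ p ^ k = 1 := by
        rw [inv_mul_cancel_right, conj_pow, hk, mul_one, mul_inv_cancel]
      rwa [h2.mul_pow, hk, mul_one] at h4
    have h4 := eq_one_of_pow_eq_one_of_mem_not_dvd hap h1 h3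
    rw [mul_inv_eq_one, mul_inv_eq_iff_eq_mul] at h4
    exact h4.symm
  let Q : Subgroup Γ :=
    { carrier := {x | a x ∈ P ∧ ∃ k, x ^ p ^ k = 1}
      one_mem' := ⟨by rw [map_one]; exact one_mem _, 0, one_pow _⟩
      mul_mem' := by
        rintro x y ⟨hx, k, hk⟩ ⟨hy, l, hl⟩
        refine ⟨by rw [map_mul]; exact mul_mem hx hy, k + l, ?_⟩
        rw [(hc x y hx hy k hk).mul_pow, pow_add, pow_mul, hk, one_pow, mul_comm (p ^ k), pow_mul,
          hl, one_pow, one_mul]
      inv_mem' := by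
        rintro x ⟨hx, k, hk⟩
        exact ⟨by rw [map_inv]; exact inv_mem hx, k, by rw [inv_pow, hk, inv_one]⟩ }
  refine ⟨Q, fun x => x.2.2.imp fun k hk => Subtype.ext hk,
    fun u hu v hv => hu.2.elim fun k hk => hc u v hu.1 hv.1 k hk, fun u hu => hu.1,
    fun u hu => ?_, fun x hx => ?_⟩
  · obtain ⟨y, rfl⟩ := ha u
    have h1 : a (pPart p y) = a y := by
      obtain ⟨k, hk⟩ := hP ⟨_, hu⟩
      obtain ⟨l, -, hl⟩ := (Nat.dvd_prime_pow hp.out).1
        (orderOf_dvd_of_pow_eq_one (congrArg Subtype.val hk : a y ^ p ^ k = 1))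
      rw [map_pPart, pPart_eq_self_iff.2 ⟨l, hl⟩]
    obtain ⟨k, hk⟩ := exists_orderOf_pPart (p := p) y
    exact ⟨pPart p y, ⟨h1 ▸ hu, k, hk ▸ pow_orderOf_eq_one _⟩, h1⟩
  · refine Subgroup.mem_normalizer_fintype ?_
    rintro u ⟨hu, k, hk⟩
    refine ⟨?_, k, by rw [conj_pow, hk, mul_one, mul_inv_cancel]⟩
    rw [map_mul, map_mul, map_inv]
    exact (Subgroup.mem_normalizer_iff.1 hx _).1 hu

omit [Finite G] in
theorem mul_conj_eq_one_of_classInner_ne_zero {X : Type w} [Group X] [Fintype X] {φ ψ : X → ℂ}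
    (h : classInner φ ψ ≠ 0) {z : X} {s t : ℂ} (hφ : ∀ x, φ (z * x) = s * φ x)
    (hψ : ∀ x, ψ (z * x) = t * ψ x) : s * conj t = 1 := by
  have h2 : classInner φ ψ = (s * conj t) * classInner φ ψ := by
    rw [classInner_def, mul_left_comm, Finset.mul_sum _ _ (s * conj t)]
    congr 1
    refine Fintype.sum_equiv (Equiv.mulLeft z).symm _ _ (fun x => ?_)
    obtain ⟨x, rfl⟩ := (Equiv.mulLeft z).surjective x
    rw [Equiv.symm_apply_apply, Equiv.coe_mulLeft]
    simp only [hφ, hψ, map_mul]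
    ring
  exact (mul_eq_right₀ h).1 h2.symm

omit [Finite G] in
theorem IsCharacter.isIrr_res_of_central {χ : Γ → ℂ} (hχ : IsCharacter Γ χ) {C K Z : Subgroup Γ}
    (hirr : IsIrrCharacter C (fun c => χ c)) (hZ : Z ≤ Subgroup.center Γ) (hKC : K ≤ C)
    (hZC : Z ≤ C) (hC : ∀ c ∈ C, ∃ z ∈ Z, ∃ k ∈ K, z * k = c) (l : Z →* ℂˣ)
    (hl : ∀ (z : Z) x, χ (z * x) = l z * χ x) : IsIrrCharacter K (fun k => χ k) := by
  have := Fintype.ofFinite C
  have := Fintype.ofFinite K
  have := Fintype.ofFinite Z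
  let m : Z × K →* C := (Subgroup.inclusion hZC).noncommCoprod (Subgroup.inclusion hKC)
    fun z k => Subtype.ext (Subgroup.mem_center_iff.1 (hZ z.2) k).symm
  have hm : Function.Surjective m := fun c => by
    obtain ⟨z, hz, k, hk, h⟩ := hC c c.2
    exact ⟨(⟨z, hz⟩, ⟨k, hk⟩), Subtype.ext h⟩
  rw [(hχ.res K).isIrr_iff, ← (hχ.res C).isIrr_iff.1 hirr, ← classInner_comp_surjective m hm,
    classInner_def, classInner_def, Fintype.sum_prod_type, Nat.card_prod]
  have h1 : ∀ (z : Z) (k : K), χ (m (z, k)) * conj (χ (m (z, k))) = χ k * conj (χ k) := by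
    intro z k
    have h2 : (l z : ℂ) * conj (l z : ℂ) = 1 := by
      rw [conj_unitsHom, ← Units.val_mul, ← map_mul, mul_inv_cancel, map_one, Units.val_one]
    change χ (z * k) * conj (χ (z * k)) = _
    rw [hl, map_mul, mul_mul_mul_comm, h2, one_mul]
  simp only [h1, Finset.sum_const, Finset.card_univ, nsmul_eq_mul, ← Nat.card_eq_fintype_card]
  have h3 : (Nat.card Z : ℂ) ≠ 0 := Nat.cast_ne_zero.2 Nat.card_pos.ne'
  push_cast
  field_simp

/-- Dade's extension theorem in a central extension -/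
theorem IsPModular.dade_central (hM : IsPModular p M) {E : Type w} [Group E] {a : Γ →* G}
    (ha : Function.Surjective a) {b : Γ →* E} (hZ : a.ker ≤ Subgroup.center Γ)
    (hap : ¬ p ∣ Nat.card a.ker) (hbp : ¬ p ∣ Nat.card b.ker) {τ : Γ → ℂ} (hτ : IsCharacter Γ τ)
    (hirr : IsIrrCharacter b.ker (fun n => τ n)) {l : a.ker → ℂ}
    (hτl : ∀ (z : a.ker) x, τ (z * x) = (l z)⁻¹ * τ x) {P : Subgroup G} (hP : IsPGroup p P)
    (hab : ∀ u ∈ P, ∀ v ∈ P, u * v = v * u) {Γ' : Type u} [Group Γ'] [Finite Γ'] {j : Γ' →* Γ}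
    (hj : Function.Injective j) (hjP : ∀ y, a (j y) ∈ Subgroup.normalizer (P : Set G))
    (hjZ : a.ker ≤ j.range)
    (hjC : ∀ x ∈ b.ker, a x ∈ Subgroup.centralizer (P : Set G) → x ∈ j.range) :
    ∃ τ' : Γ' → ℂ, IsCharacter Γ' τ' ∧ IsIrrCharacter (b.comp j).ker (fun c => τ' c) ∧
      (∀ (z : (a.comp j).ker) x, τ' (z * x) = (l ⟨j z, z.2⟩)⁻¹ * τ' x) ∧
      GlCorr p (j.comp (b.comp j).ker.subtype) τ (fun c => τ' c) := by
  have := hM.fact_prime
  obtain ⟨Q, hQ, hQab, hQP, hPQ, hQn⟩ := exists_lift_abelian_pGroup ha hZ hap hP hab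
  have hN : ¬ p ∣ Nat.card (a.ker ⊔ b.ker : Subgroup Γ) := fun h =>
    ((Nat.Prime.dvd_mul hM.prime).1 (h.trans (card_sup_dvd_mul
      (by rw [Subgroup.normalizer_eq_top]; exact le_top)))).elim hap hbp
  have hirr' : IsIrrCharacter (a.ker ⊔ b.ker : Subgroup Γ) (fun n => τ n) :=
    (hτ.res _).isIrr_of_comp (Subgroup.inclusion le_sup_right) hirr
  have hcen : ∀ y : Γ', j y ∈ a.ker ⊔ b.ker → j y ∈ Subgroup.centralizer (Q : Set Γ) := by
    intro y hy u hu
    have h1 : j y * u * (j y)⁻¹ * u⁻¹ ∈ Q :=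
      mul_mem ((Subgroup.mem_normalizer_iff.1 (hQn _ (hjP y)) _).1 hu) (inv_mem hu)
    have h2 : j y * u * (j y)⁻¹ * u⁻¹ ∈ a.ker ⊔ b.ker := by
      have := mul_mem hy (Subgroup.Normal.conj_mem inferInstance _ (inv_mem hy) u)
      simpa only [mul_assoc] using this
    obtain ⟨k, hk⟩ := hQ ⟨_, h1⟩
    have h3 := eq_one_of_pow_eq_one_of_mem_not_dvd hN h2 (congrArg Subtype.val hk)
    rw [mul_inv_eq_one, mul_inv_eq_iff_eq_mul] at h3
    exact h3.symm
  obtain ⟨τ', h1, h2, h3⟩ := dade_extension hM (H := Γ') (C := (a.ker ⊔ b.ker).comap j) _ rfl hN hτ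
    hirr' hQ hQab hj (fun y => hQn _ (hjP y)) (fun x hx hxQ => by
      obtain ⟨z, hz, n, hn, rfl⟩ := Subgroup.mem_sup_of_normal_left.1 hx
      refine mul_mem (hjZ hz) (hjC n hn fun u hu => ?_)
      obtain ⟨y, hy, rfl⟩ := hPQ u hu
      have := congrArg a (hxQ y hy)
      simpa only [map_mul, MonoidHom.mem_ker.1 hz, one_mul] using this)
    (fun y => ⟨fun h => ⟨h, hcen y h⟩, fun h => h.1⟩)
  have hZ' : (a.comp j).ker ≤ Subgroup.center Γ' := fun z hz => Subgroup.mem_center_iff.2 fun y =>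
    hj (by rw [map_mul, map_mul]; exact Subgroup.mem_center_iff.1 (hZ hz) _)
  have hZC : (a.comp j).ker ≤ (a.ker ⊔ b.ker).comap j := fun z hz => Subgroup.mem_sup_left hz
  have hKC : (b.comp j).ker ≤ (a.ker ⊔ b.ker).comap j := fun z hz => Subgroup.mem_sup_right hz
  have h4 := h1.isIrr_of_comp (Subgroup.subtype _) h2
  obtain ⟨l₀, h5, -, -⟩ := h1.exists_hom_of_le_charCenter
    (fun h => IrrCharacter.one_ne_zero ⟨τ', h4⟩ (congrFun h 1))
    (hZ'.trans (IrrCharacter.center_le_charCenter ⟨τ', h4⟩))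
  refine ⟨τ', h1, h1.isIrr_res_of_central h2 hZ' hKC hZC (fun c hc => ?_) l₀ h5, fun z x => ?_,
    h3.trans (glCorr_of_eq p (f := Subgroup.inclusion hKC) fun _ => rfl)⟩
  · obtain ⟨z, hz, n, hn, h⟩ := Subgroup.mem_sup_of_normal_left.1 hc
    obtain ⟨z, rfl⟩ := hjZ hz
    refine ⟨z, hz, z⁻¹ * c, ?_, by simp⟩
    change j (z⁻¹ * c) ∈ b.ker
    rwa [map_mul, map_inv, ← h, inv_mul_cancel_left]
  · have := Fintype.ofFinite ((a.ker ⊔ b.ker).comap j)
    have h6 := mul_conj_eq_one_of_classInner_ne_zero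
      (GlCorr.classInner_ne_zero hM.prime (β := ⟨_, h2⟩) h3) (z := ⟨z, hZC z.2⟩)
      (s := (l ⟨j z, z.2⟩)⁻¹) (t := l₀ z) (fun c => by
        rw [map_mul]; exact hτl ⟨j z, z.2⟩ _) (fun c => h5 z c)
    rw [conj_unitsHom, map_inv, Units.val_inv_eq_inv_val, mul_inv_eq_one₀ (l₀ z).ne_zero] at h6
    rw [h5, h6]

end lift

section main

theorem IsPModular.perfRel_of_invariant (hM : IsPModular p M) {G : Type u} [Group G] [Finite G]
    {N : Subgroup G} [N.Normal] [Fintype N] (hp : ¬ p ∣ Nat.card N) {θ : IrrCharacter N}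
    (hinv : charInertia θ.1 = ⊤) {P : Subgroup G} (hP : IsPGroup p P)
    (hab : ∀ u ∈ P, ∀ v ∈ P, u * v = v * u) {H : Type u} [Group H] [Finite H] {φ : H →* G}
    (hφ : Function.Injective φ) (hφP : ∀ h, φ h ∈ Subgroup.normalizer (P : Set G))
    (hsurj : ∀ g : G, ∃ h, (φ h : G ⧸ N) = g)
    (hjC : ∀ n ∈ N, n ∈ Subgroup.centralizer (P : Set G) → n ∈ φ.range)
    [Fintype (N.comap φ)] :
    ∃ β : IrrCharacter (N.comap φ), GlCorr p (φ.subgroupComap N) θ.1 β.1 ∧
      PerfRel p M (irrOver (N.comap φ).subtype β.1) (irrOver N.subtype θ.1) := by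
  have := hM.fact_prime
  obtain ⟨T⟩ := nonempty_tripleIso hinv
  have hV := T.isBlockUnion_isOver hM hp
  let a := tripleFibFst T.ϖ
  let b := tripleFibSnd T.ϖ
  have ha : Function.Surjective a := tripleFibFst_surjective T.ϖ_surjective
  have hka : ∀ z : a.ker, z.1.1.2 ∈ T.ϖ.ker := fun z => by
    have h1 : (z.1.1.1 : G ⧸ N) = T.ϖ z.1.1.2 := z.1.2
    have h2 : z.1.1.1 = 1 := z.2
    rw [MonoidHom.mem_ker, ← h1, h2, QuotientGroup.mk_one]
  have hka' : ∀ z : a.ker, z.1 = ⟨(1, (⟨_, hka z⟩ : T.ϖ.ker)), one_coe_mem_tripleFib T.ϖ _⟩ :=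
    fun z => Subtype.ext (Prod.ext z.2 rfl)
  have hZ : a.ker ≤ Subgroup.center _ := fun z hz => Subgroup.mem_center_iff.2 fun y => by
    rw [show z = _ from hka' ⟨z, hz⟩]
    exact Subtype.ext (Prod.ext (by simp)
      (Subgroup.mem_center_iff.1 (T.ker_le_center (hka ⟨z, hz⟩)) _))
  have hap : ¬ p ∣ Nat.card a.ker := fun h => T.not_dvd_card_ker hp (h.trans
    (Subgroup.card_dvd_of_injective ((b.comp a.ker.subtype).codRestrict _ hka) fun x y hxy =>
      Subtype.ext (Subtype.ext (Prod.ext ((show x.1.1.1 = 1 from x.2).trans (Eq.symm y.2))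
        (congrArg (Subtype.val : T.ϖ.ker → T.E) hxy)))))
  have hbp : ¬ p ∣ Nat.card b.ker := by rwa [Nat.card_congr (tripleFibKerEquiv T.ϖ).toEquiv]
  let l : a.ker → ℂ := fun z => T.lam ⟨_, hka z⟩
  have hl : ∀ z, l z ≠ 0 := fun z => Units.ne_zero _
  have hτl : ∀ (z : a.ker) x, T.τ (z * x) = (l z)⁻¹ * T.τ x := fun z x => by
    rw [hka' z, T.τ_one_coe_mul, Units.val_inv_eq_inv_val]
  have := Fintype.ofFinite b.ker
  have h1 : PerfRel p M {β : IrrCharacter T.E | T.IsOver β.1} (irrOver N.subtype θ.1) := by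
    refine hV.perfRel_twist hM ha (tripleFibSnd_surjective T.ϖ) hZ hap hbp T.τ_isCharacter
      T.isIrr_τ_ker hl hτl (fun β => ⟨fun h z e => h ⟨_, hka z⟩ e, fun h z e =>
        h ⟨⟨(1, z), one_coe_mem_tripleFib T.ϖ z⟩, rfl⟩ e⟩) fun χ => ?_
    rw [mem_irrOver, ← classInner_comp_mulEquiv (tripleFibKerEquiv T.ϖ).symm]
    have h0 : θ.1 = fun n => T.τ ((tripleFibKerEquiv T.ϖ).symm n) :=
      funext fun n => (T.τ_coe_one n).symm
    rw [h0]
    rfl
  let Γ' := (tripleFib N T.ϖ).comap (φ.prodMap (MonoidHom.id T.E))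
  let j : Γ' →* tripleFib N T.ϖ := (φ.prodMap (MonoidHom.id T.E)).subgroupComap _
  have hj : Function.Injective j := fun x y h =>
    Subtype.ext (Prod.ext (hφ (congrArg (fun t => t.1.1) h)) (congrArg (fun t => t.1.2) h))
  obtain ⟨τ', h2, h3, h4, h5⟩ := hM.dade_central ha hZ hap hbp T.τ_isCharacter T.isIrr_τ_ker hτl
    hP hab hj (fun y => hφP y.1.1) (fun z hz => ⟨⟨(1, z.1.2), by
        have := one_coe_mem_tripleFib T.ϖ ⟨_, hka ⟨z, hz⟩⟩
        rwa [← map_one φ] at this⟩, Subtype.ext (Prod.ext ((map_one φ).trans (Eq.symm hz)) rfl)⟩)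
    (fun x hx hxP => by
      obtain ⟨h, hh⟩ := hjC _ (fst_mem_of_mem_ker_tripleFibSnd ⟨x, hx⟩) hxP
      exact ⟨⟨(h, x.1.2), by
        change (φ h, x.1.2) ∈ tripleFib N T.ϖ
        rw [hh]; exact x.2⟩, Subtype.ext (Prod.ext hh rfl)⟩)
  let e : N.comap φ ≃* (b.comp j).ker :=
    { toFun := fun c => ⟨⟨(c, 1), coe_one_mem_tripleFib T.ϖ ⟨φ c, c.2⟩⟩, rfl⟩
      invFun := fun x => ⟨x.1.1.1, fst_mem_of_mem_ker_tripleFibSnd ⟨j x, x.2⟩⟩
      left_inv := fun _ => rfl
      right_inv := fun x => Subtype.ext (Subtype.ext (Prod.ext rfl (Eq.symm x.2)))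
      map_mul' := fun _ _ => Subtype.ext (Subtype.ext (Prod.ext rfl (mul_one _).symm)) }
  let β : IrrCharacter (N.comap φ) := IrrCharacter.comap e.toMonoidHom e.surjective ⟨_, h3⟩
  refine ⟨β, ?_, PerfRel.trans (PerfRel.symm ?_) h1⟩
  · obtain ⟨ε, Δ, hε, hΔ, h⟩ := h5.trans (glCorr_of_eq p (f := e.toMonoidHom) (β := β.1)
      fun _ => rfl)
    exact ⟨ε, Δ, hε, hΔ, fun c => by rw [← h, ← T.τ_coe_one]; rfl⟩
  · let a' : Γ' →* H := (MonoidHom.fst H T.E).comp Γ'.subtype
    have ha' : Function.Surjective a' := fun h => by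
      obtain ⟨x, hx⟩ := T.ϖ_surjective (φ h : G ⧸ N)
      exact ⟨⟨(h, x), hx.symm⟩, rfl⟩
    have hb' : Function.Surjective (b.comp j) := fun x => by
      obtain ⟨g, hg⟩ := QuotientGroup.mk_surjective (T.ϖ x)
      obtain ⟨h, hh⟩ := hsurj g
      exact ⟨⟨(h, x), hh.trans hg⟩, rfl⟩
    have hk : ∀ z : a'.ker, j z ∈ a.ker := fun z =>
      (congrArg φ (show z.1.1.1 = 1 from z.2)).trans (map_one φ)
    have := Fintype.ofFinite (b.comp j).ker
    refine hV.perfRel_twist hM ha' hb' (fun z hz => Subgroup.mem_center_iff.2 fun y => hj (by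
        rw [map_mul, map_mul]; exact Subgroup.mem_center_iff.1 (hZ (hk ⟨z, hz⟩)) _))
      (fun h => hap (h.trans (Subgroup.card_dvd_of_injective
        ((j.comp a'.ker.subtype).codRestrict _ hk) fun x y hxy =>
          Subtype.ext (hj (congrArg (Subtype.val : a.ker → _) hxy)))))
      (fun h => hp (h.trans ?_)) h2 h3 (l := fun z => l ⟨j z, hk z⟩) (fun z => hl _)
      (fun z x => h4 ⟨z, hk z⟩ x) (fun β => ⟨fun h z e => h ⟨_, hka ⟨j z, hk z⟩⟩ e, fun h z e =>
        h ⟨⟨(1, z), by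
          have := one_coe_mem_tripleFib T.ϖ z
          rwa [← map_one φ] at this⟩, rfl⟩ e⟩) fun χ => ?_
    · rw [← Nat.card_congr e.toEquiv]
      exact Subgroup.card_comap_dvd_of_injective N φ hφ
    · rw [mem_irrOver, ← classInner_comp_mulEquiv e]
      rfl

theorem mem_centralizer_of_mem_normal_not_dvd [Fact p.Prime] {G : Type u} [Group G]
    {N P : Subgroup G} [N.Normal] (hp : ¬ p ∣ Nat.card N) (hP : IsPGroup p P) {x : G}
    (hx : x ∈ N) (hxP : x ∈ Subgroup.normalizer (P : Set G)) :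
    x ∈ Subgroup.centralizer (P : Set G) := by
  intro u hu
  have h1 : x * u * x⁻¹ * u⁻¹ ∈ P :=
    mul_mem ((Subgroup.mem_normalizer_iff.1 hxP _).1 hu) (inv_mem hu)
  have h2 : x * u * x⁻¹ * u⁻¹ ∈ N := by
    have := mul_mem hx (Subgroup.Normal.conj_mem inferInstance _ (inv_mem hx) u)
    simpa only [mul_assoc] using this
  obtain ⟨k, hk⟩ := hP ⟨_, h1⟩
  have h3 := eq_one_of_pow_eq_one_of_mem_not_dvd hp h2 (congrArg Subtype.val hk)
  rw [mul_inv_eq_one, mul_inv_eq_iff_eq_mul] at h3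
  exact h3.symm

theorem glBij_hom_of_isPGroup (hp : p.Prime) {G : Type u} [Group G] [Finite G] {N P : Subgroup G}
    [N.Normal] (hN : ¬ p ∣ Nat.card N) (hP : IsPGroup p P) {C : Type v} [Group C] [Finite C]
    {f : C →* N} (hf : Function.Injective f)
    (hC1 : ∀ c, (f c : G) ∈ Subgroup.centralizer (P : Set G))
    (hC2 : ∀ n : N, (n : G) ∈ Subgroup.centralizer (P : Set G) → n ∈ f.range) :
    GlBij p f (fun χ => P ≤ charInertia χ.1) (fun _ => True) := by
  haveI : Fact p.Prime := ⟨hp⟩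
  have hb := glBij_of_isPGroup hp hP (G := N) (C := N ⊓ Subgroup.centralizer (P : Set G))
    (by rw [Subgroup.normalizer_eq_top]; exact le_top) (coprime_card_of_isPGroup hP hN).symm rfl
    inf_le_left
  let e : C →* ↥(N ⊓ Subgroup.centralizer (P : Set G)) :=
    (N.subtype.comp f).codRestrict _ fun c => ⟨(f c).2, hC1 c⟩
  have he : Function.Bijective e := ⟨fun x y h => hf (Subtype.ext (congrArg
    (Subtype.val : ↥(N ⊓ Subgroup.centralizer (P : Set G)) → G) h)), fun x => by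
      obtain ⟨c, hc⟩ := hC2 ⟨x.1, x.2.1⟩ x.2.2
      exact ⟨c, Subtype.ext (congrArg (Subtype.val : N → G) hc)⟩⟩
  exact (hb.trans hp (glBij_mulEquiv hp (MulEquiv.ofBijective e he) (Q := fun _ => True)
    fun _ => Iff.rfl)).congr (fun _ => rfl)
      (fun χ => forall₂_congr fun s _ => mem_charInertia_iff_charInv) fun _ => Iff.rfl

theorem IsBlockUnion.perfRel_cliffordFong (hM : IsPModular p M) {G : Type u} [Group G] [Fintype G]
    {N : Subgroup G} [N.Normal] [Fintype N] {θ : IrrCharacter N} {T : Subgroup G} (hNT : N ≤ T)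
    (hT : charInertia θ.1 ≤ T) {b : Set (IrrCharacter T)} (hb : IsBlockUnion M b)
    (hbV : b ⊆ irrOver (Subgroup.inclusion hNT) θ.1) :
    PerfRel p M b ((cliffordFong p hNT hT).F '' b) :=
  hb.perfRel_indFun hM (((cliffordFong p hNT hT).bijOn.injOn.mono hbV).bijOn_image)
    fun _ hψ => cliffordFong_F hNT hT (hbV hψ)

theorem IsPSolvable.perfRel_brauer (hM : IsPModular p M) {G : Type u} [Group G] [Finite G]
    (h : IsPSolvable p G) {B : Set (IrrCharacter G)} (hB : IsPBlock M B) {P : Subgroup G}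
    (hP : IsDefectGroup p M B P) (hab : ∀ u ∈ P, ∀ v ∈ P, u * v = v * u) {H : Type u} [Group H]
    [Finite H] {φ : H →* G} (hφ : Function.Injective φ)
    (hr : φ.range = Subgroup.normalizer (P : Set G)) {c : Set (IrrCharacter H)}
    (hc : IsPBlock M c) (hcB : gaPush (resK M) φ (idemK M c) = brGA (resK M) P (idemK M B)) :
    PerfRel p M c B := by
  have := hM.fact_prime
  have := hM.charP
  refine induction_on_card (P := fun G _ _ => IsPSolvable p G → ∀ {B : Set (IrrCharacter G)},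
    IsPBlock M B → ∀ {P : Subgroup G}, IsDefectGroup p M B P → (∀ u ∈ P, ∀ v ∈ P, u * v = v * u) →
    ∀ {H : Type u} [Group H] [Finite H] {φ : H →* G}, Function.Injective φ →
    φ.range = Subgroup.normalizer (P : Set G) → ∀ {c : Set (IrrCharacter H)}, IsPBlock M c →
    gaPush (resK M) φ (idemK M c) = brGA (resK M) P (idemK M B) → PerfRel p M c B) ?_ G h hB hP
    hab hφ hr hc hcB
  clear hφ hr hc hcB hab hP h hB c φ B P
  intro G _ _ ih h B hB P hP
  have := Fintype.ofFinite G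
  set N := pPrimeCore p G
  have := Fintype.ofFinite N
  have hp : ¬ p ∣ Nat.card N := not_dvd_card_pPrimeCore p
  obtain ⟨χ, hχ⟩ := hB.nonempty hM
  obtain ⟨θ, hθ⟩ := χ.exists_under N
  by_cases hinv : charInertia θ.1 = ⊤
  · intro hab H _ _ φ hφ hr c hc hcB
    have := Fintype.ofFinite (N.comap φ)
    have hφP : ∀ x, φ x ∈ Subgroup.normalizer (P : Set G) := fun x => hr ▸ ⟨x, rfl⟩
    have h1 := hM.isPBlock_irrOver hp hinv h.centralizer_pCore_quotient_le
    obtain rfl := hB.eq_of_mem hM h1 hχ hθ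
    have hjC : ∀ n ∈ N, n ∈ Subgroup.centralizer (P : Set G) → n ∈ φ.range :=
      fun n _ hn => hr ▸ centralizer_le_normalizer' P hn
    obtain ⟨β, hβ, h2⟩ := hM.perfRel_of_invariant hp hinv hP.isPGroup hab hφ hφP (fun g => by
      obtain ⟨S, rfl⟩ := (h1.isDefectGroup_iff_of_full hM (blockDefect_irrOver hp hinv) P).1 hP
      have h3 := pCore_le_sylow (S.mapSurjective (QuotientGroup.mk'_surjective N))
      have h4 : (S : Subgroup G) ≤ (pCore p (G ⧸ N)).comap (QuotientGroup.mk' N) := by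
        refine fun s hs => h.centralizer_pCore_quotient_le fun y hy => ?_
        obtain ⟨t, ht, rfl⟩ := h3 hy
        rw [← map_mul, ← map_mul, hab t ht s hs]
      have h5 := frattini_argument h4 S.2 fun h5 =>
        S.not_dvd_index (h5.trans (Subgroup.relIndex_dvd_index_of_le h4))
      obtain ⟨k, hk, n, hn, rfl⟩ := Subgroup.mem_sup_of_normal_left.1 (h5 ▸ Subgroup.mem_top g)
      obtain ⟨s, hs, hsk⟩ := h3 hk
      obtain ⟨x, hx⟩ : s * n ∈ φ.range := hr ▸ mul_mem (Subgroup.le_normalizer hs) hn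
      exact ⟨x, by rw [hx, QuotientGroup.mk_mul, QuotientGroup.mk_mul]; exact congrArg (· * _) hsk⟩)
      hjC
    have h3 := (hM.brauer_corr_over_glauberman hp N.subtype_injective (fun g n =>
      ⟨_, rfl, mem_charInertia.1 (hinv ▸ Subgroup.mem_top g) n⟩) hP.isPGroup
      (f := φ.subgroupComap N) (fun x y h => Subtype.ext (hφ (congrArg Subtype.val h)))
      (fun x => mem_centralizer_of_mem_normal_not_dvd hp hP.isPGroup x.2 (hφP _))
      (fun n hn => by
        obtain ⟨x, hx⟩ := hjC n n.2 hn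
        exact ⟨⟨x, show φ x ∈ N from hx ▸ n.2⟩, Subtype.ext hx⟩) hβ hφ hφP
      (κ := (N.comap φ).subtype) (fun _ => rfl) hB subset_rfl (hc.isBlockUnion hM) hcB).2 rfl
    rwa [h3]
  · set T := charInertia θ.1 with hT
    have hNT : N ≤ T := θ.le_charInertia
    obtain ⟨b, hb, hbV, rfl⟩ := (cliffordFong p hNT le_rfl).exists_isPBlock_image_eq
      hM (hM.isBlockUnion_irrOver_inclusion hp _ θ) hB hχ hθ
    obtain ⟨D, hD⟩ := hb.exists_isDefectGroup hM
    have hD' := hD.map_cliffordFong hM hp hNT le_rfl hb hbV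
    suffices key : (∀ u ∈ D.map T.subtype, ∀ v ∈ D.map T.subtype, u * v = v * u) →
        ∀ {H : Type u} [Group H] [Finite H] {φ : H →* G}, Function.Injective φ →
        φ.range = Subgroup.normalizer (D.map T.subtype : Set G) → ∀ {c : Set (IrrCharacter H)},
        IsPBlock M c → gaPush (resK M) φ (idemK M c) =
          brGA (resK M) (D.map T.subtype) (idemK M ((cliffordFong p hNT le_rfl).F '' b)) →
        PerfRel p M c ((cliffordFong p hNT le_rfl).F '' b) by
      intro hab H _ _ φ hφ hr c hc hcB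
      obtain ⟨x, hx⟩ := hP.exists_conj hM hB hD'
      rw [← hx] at key
      refine key ?_ (φ := (MulAut.conj x).toMonoidHom.comp φ) ((MulAut.conj x).injective.comp hφ)
        ?_ hc ?_
      · rintro _ ⟨u, hu, rfl⟩ _ ⟨v, hv, rfl⟩
        rw [← map_mul, ← map_mul, hab u hu v hv]
      · rw [MonoidHom.range_comp, hr]
        exact (normalizer_conjSub P x).symm
      · rw [← gaPush_gaPush, hcB]
        refine (gaConj_brGA x P _).trans ?_
        rw [mem_center_iff_isFixedGA_top.1 (idemK_mem_center _) x (Subgroup.mem_top x)]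
    intro hab H _ _ φ hφ hr c hc hcB
    have := Fintype.ofFinite H
    have := Fintype.ofFinite (N.comap φ)
    have hφP : ∀ x, φ x ∈ Subgroup.normalizer (D.map T.subtype : Set G) := fun x => hr ▸ ⟨x, rfl⟩
    have hCT : N.comap φ ≤ T.comap φ := Subgroup.comap_mono hNT
    have hpC : ¬ p ∣ Nat.card (N.comap φ) := fun h =>
      hp (h.trans (Subgroup.card_comap_dvd_of_injective N φ hφ))
    have hφT : Function.Injective (φ.subgroupComap T) :=
      fun x y h => Subtype.ext (hφ (congrArg Subtype.val h))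
    have hrT : (φ.subgroupComap T).range = Subgroup.normalizer (D : Set T) := by
      ext t
      rw [← mem_normalizer_map_iff T.subtype_injective, ← hr]
      exact ⟨fun ⟨x, hx⟩ => ⟨x, congrArg Subtype.val hx⟩, fun ⟨x, hx⟩ =>
        ⟨⟨x, show φ x ∈ T from hx ▸ t.2⟩, Subtype.ext hx⟩⟩
    have hDg := (hb.isDefectGroup_iff hM).1 hD
    have hbl := hDg.isBlk_norIn (hb.isBlk_top hM)
    have hind := hDg.indBlk_norIn (hb.isBlk_top hM)
    rw [norIn_top, ← hrT, MonoidHom.range_eq_map] at hbl hind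
    obtain ⟨e, he⟩ := exists_gaPush_eq hφT hbl.mem.1
    rw [← he, isBlk_gaPush_iff hφT] at hbl
    obtain ⟨cT, hcT, rfl⟩ := hbl.exists_idemK_eq hM
    have hab' : ∀ u ∈ D, ∀ v ∈ D, u * v = v * u := fun u hu v hv =>
      Subtype.ext (hab _ ⟨u, hu, rfl⟩ _ ⟨v, hv, rfl⟩)
    have h1 : PerfRel p M cT b :=
      ih _ (card_lt_of_ne_top hinv) (h.subgroup _) hb hD hab' hφT hrT hcT he
    have hf : Function.Injective (φ.subgroupComap N) :=
      fun x y h => Subtype.ext (hφ (congrArg Subtype.val h))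
    have hC1 : ∀ x : N.comap φ, φ x ∈ Subgroup.centralizer (D.map T.subtype : Set G) :=
      fun x => mem_centralizer_of_mem_normal_not_dvd hp hD'.isPGroup x.2 (hφP _)
    have hC2 : ∀ n : N, (n : G) ∈ Subgroup.centralizer (D.map T.subtype : Set G) →
        n ∈ (φ.subgroupComap N).range := fun n hn => by
      obtain ⟨x, hx⟩ : (n : G) ∈ φ.range := hr ▸ centralizer_le_normalizer' _ hn
      exact ⟨⟨x, show φ x ∈ N from hx ▸ n.2⟩, Subtype.ext hx⟩
    have hgl := glBij_hom_of_isPGroup hM.prime hp hD'.isPGroup hf hC1 hC2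
    have hDT : D.map T.subtype ≤ T := Subgroup.map_subtype_le D
    obtain ⟨β, -, hβ⟩ := hgl.ex θ hDT
    have h2 : cT ⊆ irrOver (Subgroup.inclusion hCT) β.1 :=
      (hM.brauer_corr_over_glauberman hp (Subgroup.inclusion_injective hNT) (fun g n =>
        ⟨_, rfl, mem_charInertia.1 g.2 n⟩) hD.isPGroup hf
        (fun x => (mem_centralizer_map_iff T.subtype_injective).1 (hC1 x))
        (fun n hn => hC2 n ((mem_centralizer_map_iff T.subtype_injective).2 hn)) hβ hφT
        (fun x => hrT ▸ ⟨x, rfl⟩) (κ := Subgroup.inclusion hCT) (fun _ => rfl) hb hbV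
        (hcT.isBlockUnion hM) he).1
    have h3 : charInertia β.1 ≤ T.comap φ := by
      intro x hx
      have h4 := hβ.smul (α := MulAut.conjNormal (φ x)) (α' := MulAut.conjNormal x)
        fun y => Subtype.ext (by
          change φ x * φ y * (φ x)⁻¹ = φ (x * y * x⁻¹)
          rw [map_mul, map_mul, map_inv])
      rw [← IrrCharacter.smul_eq_conjNormal_smul, ← IrrCharacter.smul_eq_conjNormal_smul,
        IrrCharacter.mem_charInertia_iff.1 hx] at h4
      refine IrrCharacter.mem_charInertia_iff.2 (hgl.inj _ _ β (fun s hs => ?_) hDT h4 hβ)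
      rw [IrrCharacter.smul_val, mem_charInertia_conjChar]
      refine hDT ?_
      simpa using (Subgroup.mem_normalizer_iff.1 (inv_mem (hφP x)) s).1 hs
    have h4 := (hcT.isBlockUnion hM).perfRel_cliffordFong hM hCT h3 h2
    have h5 := hM.isInducedBlock_cliffordFong hpC hCT h3 hcT h2
    suffices h6 : (cliffordFong p hCT h3).F '' cT = c by
      rw [h6] at h4
      exact (h4.symm.trans h1).trans ((hb.isBlockUnion hM).perfRel_cliffordFong hM hNT le_rfl hbV)
    have h6 := (indBlk_gaPush_iff hφ).2 (h5.indBlk hM)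
    have h7 := (indBlk_gaPush_iff T.subtype_injective).2 hind
    have h8 := (hM.isInducedBlock_cliffordFong hp hNT le_rfl hb hbV).indBlk hM
    rw [map_subtype_top, ← he, gaPush_gaPush] at h7
    have h9 : (Subgroup.map (φ.subgroupComap T) ⊤).map T.subtype = (T.comap φ).map φ := by
      ext g
      exact ⟨fun ⟨_, ⟨x, _, hx⟩, hg⟩ => ⟨x, x.2, by rw [← hg, ← hx]; rfl⟩,
        fun ⟨x, hx, hg⟩ => ⟨_, ⟨⟨x, hx⟩, trivial, rfl⟩, hg⟩⟩
    rw [h9] at h7
    rw [subIdem, gaIncl_eq_gaPush, gaPush_gaPush] at h6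
    have h10 := h6.of_trans (h7.trans h8 (Subgroup.map_comap_le _ _) le_top)
      (Subgroup.map_mono le_top) le_top (by
        have := (isBlk_gaPush_iff hφ).2 (hcT.isBlk_subIdem hM)
        rwa [subIdem, gaIncl_eq_gaPush, gaPush_gaPush] at this)
      ((isBlk_gaPush_iff hφ).2 (h5.2.1.isBlk_top hM))
    have h11 := (isBlk_gaPush_iff hφ).2 (h5.2.1.isBlk_top hM)
    rw [← MonoidHom.range_eq_map, hr, ← norIn_top] at h10 h11
    have h12 := (((hB.isDefectGroup_iff hM).1 hD').indBlk_norIn_iff (hB.isBlk_top hM) h11).1 h10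
    exact (h5.2.1.isBlockUnion hM).eq_of_idemK_eq hM (hc.isBlockUnion hM)
      (gaPush_injective hφ (h12.trans hcB.symm))

end main

end Cfsg
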