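import Cfsg.Agent.Mod.RealPlusOne
import Cfsg.Agent.Lin.ExcFam
import Cfsg.Agent.Grp.DicksonCA
import Cfsg.Agent.CT.PermChar
import Cfsg.Agent.CT.Values

/-! Transitive groups of prime degree whose Sylow normalizer has a TI complement of index two
in its normalizer. -/

set_option autoImplicit false

namespace Cfsg

open scoped ComplexConjugate

universe u v

section perm
variable {G : Type u} [Group G] [Finite G] {p : ℕ} [hp : Fact p.Prime] {α : Type v}
  [MulAction G α] [MulAction.IsPretransitive G α] (hα : Nat.card α = p)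
include hα

theorem card_sylow_of_prime_degree [FaithfulSMul G α] (P : Sylow p G) : Nat.card P = p := by
  have : Finite α := Nat.finite_of_card_ne_zero (hα ▸ hp.out.ne_zero)
  obtain ⟨a⟩ : Nonempty α := (Nat.card_pos_iff.1 (hα ▸ hp.out.pos)).1
  have h1 : Nat.card G ∣ p.factorial := by
    rw [← hα, ← Nat.card_perm]
    exact Subgroup.card_dvd_of_injective (MulAction.toPermHom G α)
      (MulAction.toPerm_injective (α := G) (β := α))
  have h2 : p ∣ Nat.card G := by
    rw [← hα, ← MulAction.index_stabilizer_of_transitive G a]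
    exact Subgroup.index_dvd_card _
  obtain ⟨k, hk⟩ := IsPGroup.iff_card.1 P.isPGroup'
  have h3 : p ∣ Nat.card P := P.dvd_card_of_dvd_card h2
  have h4 : p ^ k ∣ p.factorial := hk ▸ (Subgroup.card_subgroup_dvd_card _).trans h1
  rcases k with _ | _ | k
  · rw [hk] at h3
    exact absurd (Nat.le_of_dvd one_pos h3) (by have := hp.out.two_le; omega)
  · simpa using hk
  · exfalso
    obtain ⟨n, hn⟩ : ∃ n, p = n + 1 := ⟨p - 1, by have := hp.out.pos; omega⟩
    have h5 : p * p ∣ p * n.factorial := by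
      refine ((Dvd.intro (p ^ k) (by ring)).trans h4).trans ?_
      rw [hn, Nat.factorial_succ]
    have h6 := (hp.out.dvd_factorial).1 (Nat.dvd_of_mul_dvd_mul_left hp.out.pos h5)
    omega

theorem eq_one_of_smul_eq_of_prime_degree {P : Sylow p G} (hP : Nat.card P = p) {u : G}
    (hu : u ∈ (P : Subgroup G)) {a : α} (h : u • a = a) : u = 1 := by
  have : Finite α := Nat.finite_of_card_ne_zero (hα ▸ hp.out.ne_zero)
  by_contra hu1
  have h1 := permChar_eq_zero_of_dvd P hP (α := α) (by rw [hα])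
    (g := u) (by rw [orderOf_eq_of_card_prime hP hu hu1])
  rw [permChar, Nat.cast_eq_zero, Nat.card_eq_zero] at h1
  rcases h1 with h1 | h1
  · exact h1.elim ⟨a, h⟩
  · exact not_finite (MulAction.fixedBy α u)

theorem exists_smul_eq_of_prime_degree {P : Sylow p G} (hP : Nat.card P = p) (a b : α) :
    ∃ v ∈ (P : Subgroup G), v • a = b := by
  have : Finite α := Nat.finite_of_card_ne_zero (hα ▸ hp.out.ne_zero)
  have hinj : Function.Injective fun v : (P : Subgroup G) => (v : G) • a := by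
    intro v w h
    have h1 : ((w : G)⁻¹ * v) • a = a := by
      rw [mul_smul, show (v : G) • a = (w : G) • a from h, inv_smul_smul]
    have := eq_one_of_smul_eq_of_prime_degree hα hP (mul_mem (inv_mem w.2) v.2) h1
    exact Subtype.ext (inv_mul_eq_one.1 this).symm
  obtain ⟨v, hv⟩ := (hinj.bijective_of_nat_card_le (by rw [hα, hP])).2 b
  exact ⟨v, v.2, hv⟩

theorem scp_of_prime_degree [FaithfulSMul G α] (P : Sylow p G) : SCP p P := by
  have hP := card_sylow_of_prime_degree hα P
  refine ⟨hP, fun c hc => ?_⟩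
  obtain ⟨a⟩ : Nonempty α := (Nat.card_pos_iff.1 (hα ▸ hp.out.pos)).1
  obtain ⟨v, hv, e⟩ := exists_smul_eq_of_prime_degree hα hP a (c • a)
  have : c = v := by
    refine eq_of_smul_eq_smul (α := α) fun b => ?_
    obtain ⟨w, hw, rfl⟩ := exists_smul_eq_of_prime_degree hα hP a b
    rw [← mul_smul, ← Subgroup.mem_centralizer_iff.1 hc w hw, mul_smul, ← e, ← mul_smul,
      ← mul_smul, Subgroup.mem_centralizer_iff.1 (le_centralizer_of_card_prime hP hv) w hw]
  rw [this]
  exact hv

theorem SCP.exists_fixed_of_prime_degree {P : Sylow p G} (H : SCP p P) {y : G} (hy : y ∈ sylN P)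
    (hyP : y ∉ (P : Subgroup G)) : ∃ a : α, MulAction.fixedBy α y = {a} := by
  obtain ⟨a⟩ : Nonempty α := (Nat.card_pos_iff.1 (hα ▸ hp.out.pos)).1
  obtain ⟨v, hv, e⟩ := exists_smul_eq_of_prime_degree hα H.card (y • a) a
  obtain ⟨w, -, hw⟩ := H.exists_conj_eq_mul hy hyP hv
  have h1 : y • w⁻¹ • a = w⁻¹ • a := by
    rw [← mul_smul, ← hw, mul_smul, mul_smul] at e
    rw [eq_inv_smul_iff, e]
  refine ⟨w⁻¹ • a, Set.eq_singleton_iff_unique_mem.2 ⟨h1, fun b hb => ?_⟩⟩
  obtain ⟨t, ht, rfl⟩ := exists_smul_eq_of_prime_degree hα H.card (w⁻¹ • a) b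
  have h2 : (t⁻¹ * (y * t * y⁻¹)) • w⁻¹ • a = w⁻¹ • a := by
    rw [mul_smul, mul_smul, mul_smul, inv_smul_eq_iff.2 h1.symm, ← mul_smul y,
      mul_smul, show y • t • w⁻¹ • a = t • w⁻¹ • a from hb, inv_smul_smul]
  have h3 := eq_one_of_smul_eq_of_prime_degree hα H.card
    (mul_mem (inv_mem ht) ((Subgroup.mem_normalizer_iff.1 hy t).1 ht)) h2
  have h4 : t = 1 := H.eq_one_of_commute hyP ht (by
    have := inv_mul_eq_one.1 h3
    rw [Commute, SemiconjBy, ← mul_inv_eq_iff_eq_mul, ← this])
  rw [h4, one_smul]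

theorem SCP.permChar_eq_one_of_prime_degree {P : Sylow p G} (H : SCP p P) {y : G}
    (hy : y ∈ sylN P) (hyP : y ∉ (P : Subgroup G)) : permChar G α y = 1 := by
  obtain ⟨a, ha⟩ := H.exists_fixed_of_prime_degree hα hy hyP
  rw [permChar, ha]
  simp

end perm

section frame
variable {G : Type u} [Group G] [Finite G] {p : ℕ} [hp : Fact p.Prime] {P : Sylow p G}

theorem SCP.exists_frame_of_compl (H : SCP p P) {E : Subgroup G}
    (hPE : (P : Subgroup G) ⊔ E = sylN P) (hPE' : (P : Subgroup G) ⊓ E = ⊥) :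
    ∃ Fr : AutFrame p (P : Subgroup G), Subgroup.zpowers Fr.h = E ∧ orderOf Fr.h = Fr.e := by
  obtain ⟨F₀⟩ := nonempty_autFrame H.card
  have hE : E ≤ sylN P := hPE ▸ le_sup_right
  have h1 : F₀.h ∈ (((P : Subgroup G) ⊔ E : Subgroup G) : Set G) := by
    rw [hPE]
    exact F₀.h_mem
  rw [Subgroup.coe_mul_of_right_le_normalizer_left _ _ hE] at h1
  obtain ⟨v, hv, h, hh, e⟩ := h1
  have hconj : ∀ x ∈ (P : Subgroup G), h * x * h⁻¹ = x ^ F₀.j := by
    intro x hx
    have h2 := F₀.hconj x hx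
    have h3 := Subgroup.mem_centralizer_iff.1 (le_centralizer_of_card_prime H.card hv) _
      ((Subgroup.mem_normalizer_iff.1 (hE hh) x).1 hx)
    rw [← h2, ← e]
    calc h * x * h⁻¹ = (h * x * h⁻¹ * v) * v⁻¹ := by group
      _ = _ := by rw [h3]; group
  let Fr : AutFrame p (P : Subgroup G) :=
    { h := h, j := F₀.j, e := F₀.e, card := H.card, h_mem := hE hh, hconj := hconj,
      prim := F₀.prim
      gen := fun n hn => by
        obtain ⟨i, hi, c, hc, rfl⟩ := F₀.gen n hn
        refine ⟨i, hi, (h ^ i)⁻¹ * F₀.h ^ i * c, mul_mem ?_ hc, by group⟩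
        rw [Subgroup.mem_centralizer_iff]
        intro x hx
        have e1 := F₀.conj_pow hx i
        have e2 := conj_pow_of_conj (hconj x hx) i
        calc x * ((h ^ i)⁻¹ * F₀.h ^ i) = (h ^ i)⁻¹ * (h ^ i * x * (h ^ i)⁻¹) * F₀.h ^ i := by group
          _ = _ := by rw [e2, ← e1]; group }
  have hone : ∀ c ∈ E, c ∈ Subgroup.centralizer ((P : Subgroup G) : Set G) → c = 1 := by
    intro c hc hc'
    have : c ∈ (P : Subgroup G) ⊓ E := ⟨H.cen hc', hc⟩
    rwa [hPE', Subgroup.mem_bot] at this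
  refine ⟨Fr, le_antisymm (Subgroup.zpowers_le.2 hh) fun y hy => ?_, ?_⟩
  · obtain ⟨i, -, c, hc, e⟩ := Fr.gen y (hE hy)
    have : c = 1 := hone c (by
      have : c = (Fr.h ^ i)⁻¹ * y := by rw [e]; group
      rw [this]
      exact mul_mem (inv_mem (pow_mem hh _)) hy) hc
    rw [e, this, mul_one]
    exact pow_mem (Subgroup.mem_zpowers _) _
  · apply Nat.dvd_antisymm
    · exact orderOf_dvd_of_pow_eq_one
        (hone _ (pow_mem hh _) (Fr.pow_mem_centralizer_iff.2 dvd_rfl))
    · rw [← Fr.pow_mem_centralizer_iff, pow_orderOf_eq_one]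
      exact one_mem _

/-- an irreducible character of degree `p` agrees on `N(P) \ P` with a linear character -/
theorem SCP.exists_hom_of_degree (H : SCP p P) (χ : IrrCharacter G) (hd : charDegree χ.1 = p) :
    ∃ μ : sylN P →* ℂˣ, ∀ y : sylN P, (y : G) ∉ (P : Subgroup G) → χ.1 y = μ y := by
  classical
  have := Fintype.ofFinite G
  have hp0 : (p : ℂ) ≠ 0 := Nat.cast_ne_zero.2 hp.out.ne_zero
  have h1 := χ.isCharacter.isCharacter_fix (P : Subgroup G)
  have h0 : ∀ v : (P : Subgroup G), v ≠ 1 → χ.1 v = 0 := fun v hv =>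
    χ.eq_zero_of_ordProj_dvd (p := p) (by rw [← P.card_eq_multiplicity, H.card, hd])
      (H.dvd_of_mem v.2 fun h => hv (Subtype.ext h))
  have h2 : charDegree (fun n : sylN P =>
      (Nat.card (P : Subgroup G) : ℂ)⁻¹ * ∑ v : (P : Subgroup G), χ.1 (n * v)) = 1 := by
    apply charDegree_eq_of_one_eq
    rw [Finset.sum_eq_single 1 (fun v _ hv => by simpa using h0 v hv) (by simp), H.card]
    simp [χ.one_eq_charDegree, hd, hp0]
  refine ⟨detHom (fun n : sylN P =>
      (Nat.card (P : Subgroup G) : ℂ)⁻¹ * ∑ v : (P : Subgroup G), χ.1 (n * v)), fun y hy => ?_⟩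
  rw [coe_detHom, h1.detChar_of_charDegree_eq_one h2]
  have h3 : ∀ v : (P : Subgroup G), χ.1 (y * v) = χ.1 y := by
    intro v
    obtain ⟨w, -, hw⟩ := H.exists_conj_eq_mul y.2 hy v.2
    rw [χ.isCharacter.isClassFunction.mul_comm, ← hw, χ.isCharacter.isClassFunction]
  simp [h3, H.card, ← Nat.card_eq_fintype_card, hp0]

end frame

section ti
variable {G : Type u} [Group G] {E : Subgroup G}
  (hTI : ∀ g y : G, y ∈ E → y ≠ 1 → g * y * g⁻¹ ∈ E → g ∈ Subgroup.normalizer (E : Set G))
  (h2 : E.relIndex (Subgroup.normalizer (E : Set G)) = 2)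
include h2

theorem sq_mem_of_relIndex_normalizer {x : G} (hx : x ∈ Subgroup.normalizer (E : Set G)) :
    x ^ 2 ∈ E :=
  Subgroup.sq_mem_of_index_two (H := E.subgroupOf (Subgroup.normalizer (E : Set G))) h2 ⟨x, hx⟩

theorem mul_mem_of_relIndex_normalizer {x y : G} (hx : x ∈ Subgroup.normalizer (E : Set G))
    (hx' : x ∉ E) (hy : y ∈ Subgroup.normalizer (E : Set G)) (hy' : y ∉ E) : x * y ∈ E :=
  (Subgroup.mul_mem_iff_of_index_two (H := E.subgroupOf (Subgroup.normalizer (E : Set G))) h2
    (a := ⟨x, hx⟩) (b := ⟨y, hy⟩)).2 (iff_of_false hx' hy')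

include hTI

theorem not_commute_of_ti_of_perfect [Finite G] (hperf : commutator G = ⊤) {h w : G}
    (hE : Subgroup.zpowers h = E) (hh : h ^ 2 ≠ 1) (hw : w ∈ Subgroup.normalizer (E : Set G))
    (hwE : w ∉ E) : ¬ Commute w h := by
  intro hc
  set N := Subgroup.normalizer (E : Set G) with hN
  have hEN : E ≤ N := Subgroup.le_normalizer
  have hcomm : ∀ x ∈ N, ∀ y ∈ N, Commute x y := by
    have h1 : ∀ x ∈ N, Commute w x ∧ Commute h x := by
      intro x hx
      by_cases hxE : x ∈ E
      · rw [← hE] at hxE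
        obtain ⟨k, rfl⟩ := hxE
        exact ⟨hc.zpow_right k, (Commute.refl h).zpow_right k⟩
      · have := mul_mem_of_relIndex_normalizer h2 (inv_mem hw) (fun h => hwE (inv_mem_iff.1 h))
          hx hxE
        rw [← hE] at this
        obtain ⟨k, hk⟩ := this
        have e : x = w * h ^ k := by rw [show h ^ k = w⁻¹ * x from hk]; group
        rw [e]
        exact ⟨(Commute.refl w).mul_right (hc.zpow_right k),
          hc.symm.mul_right ((Commute.refl h).zpow_right k)⟩
    intro x hx y hy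
    by_cases hxE : x ∈ E
    · rw [← hE] at hxE
      obtain ⟨k, rfl⟩ := hxE
      exact (h1 y hy).2.zpow_left k
    · have := mul_mem_of_relIndex_normalizer h2 (inv_mem hw) (fun h => hwE (inv_mem_iff.1 h))
        hx hxE
      rw [← hE] at this
      obtain ⟨k, hk⟩ := this
      have e : x = w * h ^ k := by rw [show h ^ k = w⁻¹ * x from hk]; group
      rw [e]
      exact (h1 y hy).1.mul_left ((h1 y hy).2.zpow_left k)
  obtain ⟨l, k, s, hl, hs, hsE, hs2⟩ : ∃ (l k : ℕ) (s : G), l.Prime ∧ orderOf s = l ^ k ∧ s ∈ E ∧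
      s ^ 2 ≠ 1 := by
    have hhE : h ∈ E := hE ▸ Subgroup.mem_zpowers h
    by_cases h3 : ∀ {d}, Nat.Prime d → d ∣ orderOf h → d = 2
    · exact ⟨2, _, h, Nat.prime_two,
        Nat.eq_prime_pow_of_unique_prime_dvd (orderOf_pos h).ne' h3, hhE, hh⟩
    · push Not at h3
      obtain ⟨d, hd, hd1, hd2⟩ := h3
      have e := orderOf_pow_orderOf_div (orderOf_pos h).ne' hd1
      refine ⟨d, 1, _, hd, by rw [e, pow_one], pow_mem hhE _, fun h4 => hd2 ?_⟩
      have := orderOf_dvd_of_pow_eq_one h4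
      rw [e] at this
      exact (Nat.prime_dvd_prime_iff_eq hd Nat.prime_two).1 this
  have := Fact.mk hl
  have hsP : IsPGroup l (Subgroup.zpowers s) := IsPGroup.of_card (by rw [Nat.card_zpowers, hs])
  obtain ⟨Q, hQ⟩ := hsP.exists_le_sylow
  have hsQ : s ∈ (Q : Subgroup G) := hQ (Subgroup.mem_zpowers s)
  have key : ∀ g : G, g * s * g⁻¹ ∈ N → g ∈ N := by
    intro g hg
    refine hTI g (s ^ 2) (pow_mem hsE 2) hs2 ?_
    have := sq_mem_of_relIndex_normalizer h2 hg
    rwa [conj_pow] at this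
  have hQN : (Q : Subgroup G) ≤ N := by
    by_contra hQN
    have hnil : Group.IsNilpotent Q := Q.isPGroup'.isNilpotent
    have hlt : N.subgroupOf Q < ⊤ := by
      rw [lt_top_iff_ne_top, Ne, Subgroup.subgroupOf_eq_top]
      exact hQN
    obtain ⟨x, hx, hx'⟩ := SetLike.exists_of_lt (Group.normalizerCondition_of_isNilpotent _ hlt)
    exact hx' (key x ((Subgroup.mem_normalizer_iff.1 hx ⟨s, hsQ⟩).1 (hEN hsE)))
  have hNQ : Subgroup.normalizer ((Q : Subgroup G) : Set G) ≤ N := fun g hg =>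
    key g (hQN ((Subgroup.mem_normalizer_iff.1 hg s).1 hsQ))
  have e := sylow_inf_commutator_inf_centralizer_of_comm Q
    ⟨⟨fun a b => Subtype.ext (hcomm a (hQN a.2) b (hQN b.2)).eq⟩⟩
  have : s ∈ (Q : Subgroup G) ⊓ commutator G ⊓
      Subgroup.centralizer (Subgroup.normalizer ((Q : Subgroup G) : Set G) : Set G) :=
    ⟨⟨hsQ, by rw [hperf]; trivial⟩,
      Subgroup.mem_centralizer_iff.2 fun g hg => (hcomm g (hNQ hg) s (hEN hsE)).eq⟩
  rw [e, Subgroup.mem_bot] at this
  exact hs2 (by rw [this, one_pow])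

theorem indFun_apply_of_ti_index_two [Fintype G] {w : G}
    (hw : w ∈ Subgroup.normalizer (E : Set G)) (hwE : w ∉ E) {θ : E → ℂ}
    (hθ : IsClassFunction E θ) (y : E) (hy : y ≠ 1) :
    indFun E θ y = θ y + θ ⟨w * y * w⁻¹, (Subgroup.mem_normalizer_iff.1 hw y).1 y.2⟩ := by
  classical
  have hE0 : (Nat.card E : ℂ) ≠ 0 := Nat.cast_ne_zero.2 Nat.card_pos.ne'
  rw [indFun_apply']
  have e1 : ∑ x : G, extendByZero E θ (x * y * x⁻¹) =
      ∑ x : Subgroup.normalizer (E : Set G), extendByZero E θ (x * y * (x : G)⁻¹) := by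
    rw [← Finset.sum_subtype (Finset.univ.filter (· ∈ Subgroup.normalizer (E : Set G)))
      (by simp) (fun x => extendByZero E θ (x * y * x⁻¹))]
    symm
    refine Finset.sum_subset (Finset.subset_univ _) fun x _ hx => ?_
    refine extendByZero_of_not_mem _ _ fun h => hx ?_
    simpa using hTI x y y.2 (fun h => hy (Subtype.ext h)) h
  rw [e1, sum_of_relIndex_two Subgroup.le_normalizer h2 hw hwE
    (fun x => extendByZero E θ (x * y * x⁻¹))]
  have e2 : ∀ u : E, extendByZero E θ (u * y * (u : G)⁻¹) = θ y := fun u => by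
    rw [hθ.extendByZero_conj u.2, extendByZero_coe]
  have e3 : ∀ u : E, extendByZero E θ (u * w * y * ((u : G) * w)⁻¹) =
      θ ⟨w * y * w⁻¹, (Subgroup.mem_normalizer_iff.1 hw y).1 y.2⟩ := fun u => by
    rw [show (u : G) * w * y * ((u : G) * w)⁻¹ = u * (w * y * w⁻¹) * (u : G)⁻¹ by group,
      hθ.extendByZero_conj u.2, extendByZero_of_mem]
  simp only [e2, e3, Finset.sum_const, Finset.card_univ, ← Nat.card_eq_fintype_card, nsmul_eq_mul]
  field_simp

/-- the irreducible character `1 + χ - (1 - λ)^G` -/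
theorem exists_irr_of_ti_index_two [Fintype G] {w : G}
    (hw : w ∈ Subgroup.normalizer (E : Set G)) (hwE : w ∉ E) (χ : IrrCharacter G)
    (hχ1 : χ ≠ IrrCharacter.triv G) (hχ : ∀ y ∈ E, y ≠ 1 → χ.1 y = 1) (l l' : E →* ℂˣ)
    (hl : ∀ y : E, l' y = l ⟨w * y * w⁻¹, (Subgroup.mem_normalizer_iff.1 hw y).1 y.2⟩)
    (hne : l' ≠ l) :
    ∃ Θ : IrrCharacter G, Θ.1 1 = 1 + χ.1 1 ∧ (∀ y : E, y ≠ 1 → Θ.1 y = l y + l' y) ∧
      ∀ g : G, (∀ x : G, x * g * x⁻¹ ∉ E) → Θ.1 g = 1 + χ.1 g := by
  classical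
  have hl1 : l ≠ 1 := by
    rintro rfl
    exact hne (MonoidHom.ext fun y => by rw [hl]; rfl)
  have hl1' : l' ≠ 1 := by
    rintro rfl
    apply hl1
    ext y
    have := hl ⟨w⁻¹ * y * w⁻¹⁻¹, (Subgroup.mem_normalizer_iff.1 (inv_mem hw) y).1 y.2⟩
    rw [MonoidHom.one_apply] at this
    rw [MonoidHom.one_apply, this]
    congr 2
    ext
    simp [mul_assoc]
  set θ : E → ℂ := (IrrCharacter.triv E).1 - (IrrCharacter.ofHom l).1 with hθ
  have hθg : IsGeneralizedCharacter E θ :=
    (IrrCharacter.triv E).isCharacter.isGeneralizedCharacter.sub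
      (IrrCharacter.ofHom l).isCharacter.isGeneralizedCharacter
  have hθ1 : θ 1 = 0 := by simp [hθ]
  set a := indFun E θ with ha
  have hag : IsGeneralizedCharacter G a := hθg.indFun
  have ha1 : a 1 = 0 := by rw [ha, indFun_one, hθ1, mul_zero]
  have hres : (fun y : E => a y) = ((IrrCharacter.triv E).1 - (IrrCharacter.ofHom l).1) +
      ((IrrCharacter.triv E).1 - (IrrCharacter.ofHom l').1) := by
    funext y
    by_cases hy : y = 1
    · simp [hy, ha1]
    · rw [ha, indFun_apply_of_ti_index_two hTI h2 hw hwE hθg.isClassFunction y hy]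
      simp [hθ, hl]
  have n1 : IrrCharacter.triv E ≠ IrrCharacter.ofHom l := by
    rw [← IrrCharacter.ofHom_one]
    exact fun h => hl1 (IrrCharacter.ofHom_injective h).symm
  have n2 : IrrCharacter.triv E ≠ IrrCharacter.ofHom l' := by
    rw [← IrrCharacter.ofHom_one]
    exact fun h => hl1' (IrrCharacter.ofHom_injective h).symm
  have n3 : IrrCharacter.ofHom l ≠ IrrCharacter.ofHom l' :=
    fun h => hne (IrrCharacter.ofHom_injective h).symm
  have i1 : classInner a a = 3 := by
    conv_lhs => rw [ha, classInner_indFun_left E θ (indFun_isClassFunction E θ), ← ha, hres, hθ]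
    simp only [classInner_add_right, classInner_sub_left, classInner_sub_right,
      IrrCharacter.classInner_self, IrrCharacter.classInner_of_ne n1,
      IrrCharacter.classInner_of_ne n1.symm, IrrCharacter.classInner_of_ne n2,
      IrrCharacter.classInner_of_ne n3]
    norm_num
  have i0 : classInner θ (IrrCharacter.triv E).1 = 1 := by
    rw [hθ, classInner_sub_left, IrrCharacter.classInner_self,
      IrrCharacter.classInner_of_ne n1.symm, sub_zero]
  have i2 : classInner a (IrrCharacter.triv G).1 = 1 := by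
    rw [ha, classInner_indFun_left E θ (IrrCharacter.triv G).isCharacter.isClassFunction, ← i0]
    rfl
  have i3 : classInner a χ.1 = 1 := by
    rw [ha, classInner_indFun_left E θ χ.isCharacter.isClassFunction, ← i0, classInner_def,
      classInner_def]
    congr 1
    refine Finset.sum_congr rfl fun y _ => ?_
    by_cases hy : y = 1
    · simp [hy, hθ1]
    · rw [hχ y y.2 fun h => hy (Subtype.ext h)]
      simp
  have g1 := (IrrCharacter.triv G).isCharacter.isGeneralizedCharacter
  have g2 := χ.isCharacter.isGeneralizedCharacter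
  have hβ := (g1.add g2).sub hag
  have i4 : classInner ((IrrCharacter.triv G).1 + χ.1 - a) ((IrrCharacter.triv G).1 + χ.1 - a) =
      1 := by
    simp only [classInner_add_right, classInner_sub_left, classInner_sub_right,
      classInner_add_left, IrrCharacter.classInner_self, IrrCharacter.classInner_of_ne hχ1,
      IrrCharacter.classInner_of_ne hχ1.symm, i1, i2, i3, g1.classInner_comm hag,
      g2.classInner_comm hag]
    norm_num
  obtain ⟨Θ, hΘ | hΘ⟩ := hβ.exists_irr_of_classInner_self_eq_one i4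
  · refine ⟨Θ, ?_, fun y hy => ?_, fun g hg => ?_⟩
    · rw [← hΘ]
      simp [ha1]
    · have := congrFun hres y
      rw [← hΘ]
      simp only [Pi.sub_apply, Pi.add_apply, this, hχ y y.2 fun h => hy (Subtype.ext h)]
      simp
      ring
    · rw [← hΘ]
      simp [ha, indFun_eq_zero_of_forall_not_mem E θ hg]
  · exfalso
    have := congrFun hΘ 1
    simp only [Pi.sub_apply, Pi.add_apply, Pi.neg_apply, ha1, χ.one_eq_charDegree,
      Θ.one_eq_charDegree, (IrrCharacter.triv G).one_eq_charDegree] at this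
    have h3 : charDegree (IrrCharacter.triv G).1 + charDegree χ.1 + charDegree Θ.1 = 0 := by
      have : ((charDegree (IrrCharacter.triv G).1 + charDegree χ.1 + charDegree Θ.1 : ℕ) : ℂ) =
          0 := by
        push_cast
        linear_combination this
      exact_mod_cast this
    have := Θ.charDegree_pos
    omega

end ti

open scoped MatrixGroups in
/-- Dickson's counting argument for subgroups of `PSL(2, F)`. -/
theorem dickson_psl2 {F : Type v} [Field F] [Finite F] (h2 : (2 : F) ≠ 0) {K : Type u} [Group K]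
    (f : K →* Matrix.ProjectiveSpecialLinearGroup (Fin 2) F) (hf : Function.Injective f)
    (hK : (Nat.card K : F) ≠ 0) :
    (∃ A : Subgroup K, (∀ a ∈ A, ∀ b ∈ A, Commute a b) ∧ A.index ≤ 2) ∨
      Nat.card K = 12 ∨ Nat.card K = 24 ∨ Nat.card K = 60 := by
  set L : Subgroup SL(2, F) := f.range.comap (QuotientGroup.mk' (Subgroup.center SL(2, F)))
  let π : L →* K := (MonoidHom.ofInjective hf).symm.toMonoidHom.comp
    ((QuotientGroup.mk' (Subgroup.center SL(2, F))).subgroupComap f.range)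
  have hπ : Function.Surjective π := (MonoidHom.ofInjective hf).symm.surjective.comp
    (MonoidHom.subgroupComap_surjective_of_surjective _ _ (QuotientGroup.mk'_surjective _))
  have hker : ∀ z : L, z ∈ π.ker ↔ (z : SL(2, F)) ∈ Subgroup.center SL(2, F) := by
    intro z
    rw [MonoidHom.mem_ker, ← QuotientGroup.eq_one_iff]
    simp only [π, MonoidHom.comp_apply, MulEquiv.coe_toMonoidHom, EmbeddingLike.map_eq_one_iff]
    exact Subtype.ext_iff
  have hidx : π.ker.index = Nat.card K := by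
    rw [Subgroup.index_ker, MonoidHom.range_eq_top.2 hπ, Subgroup.card_top]
  have hP : IsPGroup 2 π.ker := by
    intro z
    refine ⟨1, Subtype.ext (Subtype.ext ?_)⟩
    obtain ⟨r, hr, e⟩ := Matrix.SpecialLinearGroup.mem_center_iff.1 ((hker z).1 z.2)
    apply Subtype.ext
    simp only [pow_one, SubgroupClass.coe_pow, Matrix.SpecialLinearGroup.coe_pow, ← e, ← map_pow]
    rw [Fintype.card_fin] at hr
    rw [hr, map_one]
    rfl
  have := Fact.mk Nat.prime_two
  obtain ⟨k, hk⟩ := IsPGroup.iff_card.1 hP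
  let X : L →* Matrix (Fin 2) (Fin 2) F :=
    (Matrix.SpecialLinearGroup.coeMonoidHom : SL(2, F) →* _).comp L.subtype
  have hX : Function.Injective X :=
    Matrix.SpecialLinearGroup.coeMonoidHom_injective.comp L.subtype_injective
  rcases dickson_mat2 X hX h2 (by
    rw [← π.ker.card_mul_index, hk, hidx]
    push_cast
    exact mul_ne_zero (pow_ne_zero _ h2) hK) with ⟨A, hA, hi⟩ | h
  · refine Or.inl ⟨A.map π, ?_, le_trans (Nat.le_of_dvd
      (Nat.pos_of_ne_zero Subgroup.index_ne_zero_of_finite) (A.index_map_dvd hπ)) hi⟩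
    rintro _ ⟨a, ha, rfl⟩ _ ⟨b, hb, rfl⟩
    exact (hA a ha b hb).map π
  by_cases hc : Subgroup.center L ≤ π.ker
  · have e : Subgroup.center L = π.ker := le_antisymm hc fun z hz =>
      Subgroup.mem_center_iff.2 fun g =>
        Subtype.ext (Subgroup.mem_center_iff.1 ((hker z).1 hz) g)
    rw [e, hidx] at h
    exact Or.inr h
  · obtain ⟨z, hz, hz'⟩ := SetLike.not_le_iff_exists.1 hc
    have hns : ∀ c : F, X z ≠ c • 1 := fun c h => hz' ((hker z).2
      (Subgroup.mem_center_iff.2 fun g => Subtype.ext (by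
        have h' : ((z : SL(2, F)) : Matrix (Fin 2) (Fin 2) F) = c • 1 := h
        simp [h'])))
    refine Or.inl ⟨⊤, fun a _ b _ => ?_, by simp⟩
    obtain ⟨a, rfl⟩ := hπ a
    obtain ⟨b, rfl⟩ := hπ b
    have h1 : ∀ g : L, Commute (X z) (X g) := fun g =>
      Commute.map (Subgroup.mem_center_iff.1 hz g).symm X
    have h3 : Commute a b := hX (by simpa using (mat2_commute_of_commute hns (h1 a) (h1 b)).eq)
    exact h3.map π

section main
variable {G : Type u} [Group G] [Fintype G] {p : ℕ} [hp : Fact p.Prime] {P : Sylow p G}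

theorem SCP.perfect_of_unique_degree (H : SCP p P) (Fr : AutFrame p (P : Subgroup G))
    (he : 1 < Fr.e) {χ : IrrCharacter G} (hd : charDegree χ.1 = p)
    (huniq : ∀ ψ : IrrCharacter G, charDegree ψ.1 = p → ψ = χ) : commutator G = ⊤ := by
  obtain ⟨μ, hμ⟩ := H.exists_hom_of_degree χ hd
  have hh : Fr.h ∉ (P : Subgroup G) := fun h => by
    have := Fr.pow_mem_centralizer_iff.1 (show Fr.h ^ 1 ∈ _ by
      rw [pow_one]; exact le_centralizer_of_card_prime H.card h)
    have := Nat.le_of_dvd one_pos this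
    omega
  rw [eq_top_iff]
  intro g _
  rw [mem_commutator_iff_forall_unitsHom]
  intro ν
  have h1 : ν Fr.h = 1 := by
    have e := congrFun (congrArg Subtype.val (huniq (χ.twist ν) (by simp [hd]))) Fr.h
    rw [IrrCharacter.twist_apply, hμ ⟨_, Fr.h_mem⟩ hh] at e
    exact Units.ext (mul_right_cancel₀ (Units.ne_zero _) (e.trans (one_mul _).symm))
  have h2 : (P : Subgroup G) ≤ ν.ker := by
    intro u hu
    obtain ⟨v, -, hv⟩ := H.exists_conj_eq_mul Fr.h_mem hh hu
    have := congrArg ν hv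
    simpa [h1] using this.symm
  have h3 : Subgroup.normalizer ((P : Subgroup G) : Set G) ≤ ν.ker := by
    intro n hn
    obtain ⟨i, -, c, hc, rfl⟩ := Fr.gen n hn
    exact mul_mem (pow_mem (MonoidHom.mem_ker.2 h1) _) (h2 (H.cen hc))
  have h4 := Sylow.normalizer_sup_eq_top' P h2
  have h5 : ν.ker = ⊤ := by
    rw [eq_top_iff, ← h4]
    exact sup_le h3 le_rfl
  exact MonoidHom.mem_ker.1 (by rw [h5]; trivial)

theorem detChar_res_eq_one_of_perfect (hperf : commutator G = ⊤) {χ : G → ℂ}
    (hχ : IsCharacter G χ) (E : Subgroup G) (y : E) : detChar (fun x : E => χ x) y = 1 := by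
  rw [hχ.detChar_res, ← coe_detHom, monoidHom_eq_one_of_perfect hperf, Units.val_one]

theorem ito_prime_degree {α : Type v} [MulAction G α] [FaithfulSMul G α]
    [MulAction.IsPretransitive G α] (hα : Nat.card α = p) {χ : IrrCharacter G}
    (hd : charDegree χ.1 = p) (huniq : ∀ ψ : IrrCharacter G, charDegree ψ.1 = p → ψ = χ)
    {E : Subgroup G} (hPE : (P : Subgroup G) ⊔ E = sylN P) (hPE' : (P : Subgroup G) ⊓ E = ⊥)
    (hNE : Nat.card (Subgroup.normalizer (E : Set G)) = 2 * Nat.card E)
    (hTI : ∀ g y : G, y ∈ E → y ≠ 1 → g * y * g⁻¹ ∈ E → g ∈ Subgroup.normalizer (E : Set G)) :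
    (p = 5 ∨ p = 7 ∨ p = 11) ∧
      Nonempty (G ≃* Matrix.ProjectiveSpecialLinearGroup (Fin 2) (ZMod p)) := by
  classical
  have : Finite α := Nat.finite_of_card_ne_zero (hα ▸ hp.out.ne_zero)
  have hp2 := hp.out.two_le
  have H := scp_of_prime_degree hα P
  obtain ⟨Fr, hE, hord⟩ := H.exists_frame_of_compl hPE hPE'
  have hEN : E ≤ sylN P := hPE ▸ le_sup_right
  have hhE : Fr.h ∈ E := hE ▸ Subgroup.mem_zpowers _
  have hcE : Nat.card E = Fr.e := by rw [← hE, Nat.card_zpowers, hord]
  have h2 : E.relIndex (Subgroup.normalizer (E : Set G)) = 2 := by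
    have e := Subgroup.card_mul_index (E.subgroupOf (Subgroup.normalizer (E : Set G)))
    rw [Nat.card_congr (Subgroup.subgroupOfEquivOfLe Subgroup.le_normalizer).toEquiv, hNE,
      mul_comm 2] at e
    exact Nat.eq_of_mul_eq_mul_left Nat.card_pos e
  have he : 1 < Fr.e := by
    by_contra he
    have he0 := Fr.e_pos
    have h1 : E = ⊥ := Subgroup.eq_bot_of_card_eq _ (by omega)
    rw [h1, Subgroup.normalizer_eq_top, Subgroup.card_top, Subgroup.card_bot] at hNE
    have h3 := χ.sq_charDegree_le_index_center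
    have h4 : (Subgroup.center G).index ≤ Nat.card G :=
      Nat.le_of_dvd Nat.card_pos (Subgroup.index_dvd_card _)
    rw [hd] at h3
    nlinarith
  have hnP : ∀ y ∈ E, y ≠ 1 → y ∉ (P : Subgroup G) := fun y hy hy1 hyP => hy1 (by
    have : y ∈ (P : Subgroup G) ⊓ E := ⟨hyP, hy⟩
    rwa [hPE', Subgroup.mem_bot] at this)
  have hperf := H.perfect_of_unique_degree Fr he hd huniq
  have hnn : ¬ (P : Subgroup G).Normal := fun h => index_sylN_ne_one_of_perfect hperf P H.card
    (Subgroup.index_eq_one.2 (Subgroup.normalizer_eq_top_iff.2 h))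
  have hprim : MulAction.IsPreprimitive G α :=
    MulAction.IsPreprimitive.of_prime_card (by rw [hα]; exact hp.out)
  have hO : pPrimeCore p G = ⊥ := pPrimeCore_eq_bot_of_isPreprimitive (α := α) (by rw [hα])
  have hπ := isCharacter_permChar (G := G) (α := α)
  have hπ1 : ∀ y ∈ E, y ≠ 1 → permChar G α y = 1 := fun y hy hy1 =>
    H.permChar_eq_one_of_prime_degree hα (hEN hy) (hnP y hy hy1)
  have hcG := H.card_G
  rw [Fr.autIdx_eq] at hcG
  have hh1 : ∀ {k}, 0 < k → k < Fr.e → Fr.h ^ k ≠ 1 := fun hk hk' h => by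
    have := Nat.le_of_dvd hk (orderOf_dvd_of_pow_eq_one h)
    omega
  have hfin : (sylN P).index = p + 1 → 3 < p ∧ 2 * Nat.card G = p * (p - 1) * (p + 1) ∧
      Nonempty (G ≃* Matrix.ProjectiveSpecialLinearGroup (Fin 2) (ZMod p)) := fun hi => by
    rcases brauer_prime_core hperf P H.card hO (n := 1)
      (by rw [P.card_eq_index_normalizer]; exact hi.trans (by ring)) (fun h => by have := h.le; omega) with h | h
    · exact h.2
    · exact absurd rfl h.1
  rcases Nat.lt_or_ge 2 Fr.e with he2 | he2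
  swap
  · have he3 : Fr.e = 2 := by omega
    have hp3 : p ≠ 2 := by have := Fr.e_lt; omega
    have hN : Nat.card (sylN P) = 2 * p := by rw [H.card_N, Fr.autIdx_eq, he3, mul_comm]
    have h5 : 5 ≤ p := by
      have h4 : p ≠ 4 := by rintro rfl; norm_num at hp; exact absurd hp.out (by norm_num)
      by_contra h
      obtain rfl : p = 3 := by omega
      have h1 : Nat.card G ≤ 6 := by
        have := Nat.card_le_card_of_injective _ (MulAction.toPerm_injective (α := G) (β := α))
        rwa [Nat.card_perm, hα] at this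
      exact hnn (Subgroup.normalizer_eq_top_iff.1
        (Subgroup.eq_top_of_le_card _ (by rw [hN]; exact h1)))
    obtain ⟨O, ζ, Q⟩ := (dihNorm_of_card_normalizer P hp3 hN hO hnn).exists_qTwo h5 hO hnn
      (α := α) (Or.inl hα)
    have hv : Fr.h * Fr.h = 1 := by rw [← sq, ← he3, ← hord, pow_orderOf_eq_one]
    have hv1 : Fr.h ≠ 1 := by simpa using hh1 one_pos he
    have e1 := (Q.main hv hv1).1
    have e2 : Nat.card (Subgroup.centralizer ({Fr.h} : Set G)) ≤ 4 := by
      have : Subgroup.centralizer ({Fr.h} : Set G) ≤ Subgroup.normalizer (E : Set G) :=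
        fun g hg => hTI g _ hhE hv1 (by
          rw [Subgroup.mem_centralizer_singleton_iff.1 hg, mul_inv_cancel_right]
          exact hhE)
      have := Subgroup.card_le_of_le this
      rwa [hNE, hcE, he3] at this
    obtain rfl : p = 5 := by omega
    have e3 := Q.card_eq
    exact ⟨Or.inl rfl, (hfin (by rw [he3] at hcG; omega)).2.2⟩
  have hχE : ∀ y ∈ E, y ≠ 1 → χ.1 y = 1 := by
    obtain ⟨μ, hμ⟩ := H.exists_hom_of_degree χ hd
    set μ' : E →* ℂˣ := μ.comp (Subgroup.inclusion hEN) with hμ'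
    have e : ((fun y : E => χ.1 y) + fun y : E => ((1 : E →* ℂˣ) y : ℂ)) =
        (fun y : E => permChar G α y) + fun y : E => (μ' y : ℂ) := by
      funext y
      by_cases hy : y = 1
      · simp [hy, χ.one_eq_charDegree, hd, permChar_one, hα]
      · have hy' : (y : G) ≠ 1 := fun h => hy (Subtype.ext h)
        have := hμ ⟨y, hEN y.2⟩ (hnP y y.2 hy')
        simp only [Pi.add_apply, hπ1 y y.2 hy', this, add_comm]
        rfl
    intro y hy hy1
    have e1 := congrArg (fun ψ => detChar ψ ⟨y, hy⟩) e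
    simp only [(χ.isCharacter.res E).detChar_add (isCharacter_unitsHom _),
      (hπ.res E).detChar_add (isCharacter_unitsHom _), detChar_unitsHom,
      detChar_res_eq_one_of_perfect hperf χ.isCharacter,
      detChar_res_eq_one_of_perfect hperf hπ, one_mul] at e1
    rw [hμ ⟨y, hEN hy⟩ (hnP y hy hy1)]
    exact e1.symm
  obtain ⟨w, hw, hwE⟩ : ∃ w ∈ Subgroup.normalizer (E : Set G), w ∉ E := by
    by_contra! h
    rw [Subgroup.relIndex_eq_one.2 h] at h2
    omega
  have hhh := hh1 two_pos he2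
  have hnc := not_commute_of_ti_of_perfect hTI h2 hperf hE hhh hw hwE
  have hEc : ∀ a b : E, a * b = b * a := by
    rintro ⟨a, ha⟩ ⟨b, hb⟩
    rw [← hE] at ha hb
    obtain ⟨i, rfl⟩ := ha
    obtain ⟨k, rfl⟩ := hb
    exact Subtype.ext (zpow_mul_comm _ _ _)
  let c : E →* E := (Subgroup.normalizerMonoidHom E ⟨w, hw⟩).toMonoidHom
  obtain ⟨l, -, hl⟩ := exists_unitsHom_le_ker_ne_one (G := E) (N := ⊥)
    (g := c ⟨_, hhE⟩ * (⟨_, hhE⟩ : E)⁻¹) (by
      rw [commutator_def, Subgroup.commutator_le]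
      intro a _ b _
      rw [Subgroup.mem_bot, commutatorElement_eq_one_iff_mul_comm, hEc]) (by
      rw [Subgroup.mem_bot, mul_inv_eq_one]
      intro h
      have : w * Fr.h * w⁻¹ = Fr.h := congrArg Subtype.val h
      exact hnc (mul_inv_eq_iff_eq_mul.1 this))
  rw [map_mul, map_inv, Ne, mul_inv_eq_one] at hl
  have hχ1 : χ ≠ IrrCharacter.triv G := fun h => by
    rw [h, IrrCharacter.charDegree_triv] at hd
    omega
  obtain ⟨Θ, hΘ1, hΘE, hΘ0⟩ := exists_irr_of_ti_index_two hTI h2 hw hwE χ hχ1 hχE l (l.comp c)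
    (fun y => rfl) (fun h => hl (by rw [← MonoidHom.comp_apply, h]))
  have hinv : ∀ y : E, (l (c y) : ℂ) = (l y : ℂ)⁻¹ := by
    have e : ((fun y : E => Θ.1 y) + fun y : E => ((1 : E →* ℂˣ) y : ℂ)) =
        (fun y : E => permChar G α y) + (fun y : E => (l y : ℂ)) +
          fun y : E => (l.comp c y : ℂ) := by
      funext y
      by_cases hy : y = 1
      · simp [hy, hΘ1, χ.one_eq_charDegree, hd, permChar_one, hα]
        ring
      · have hy' : (y : G) ≠ 1 := fun h => hy (Subtype.ext h)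
        simp only [Pi.add_apply, hπ1 y y.2 hy', hΘE y hy]
        simp
        ring
    intro y
    have e1 := congrArg (fun ψ => detChar ψ y) e
    simp only [(Θ.isCharacter.res E).detChar_add (isCharacter_unitsHom _),
      ((hπ.res E).add (isCharacter_unitsHom _)).detChar_add (isCharacter_unitsHom _),
      (hπ.res E).detChar_add (isCharacter_unitsHom _), detChar_unitsHom,
      detChar_res_eq_one_of_perfect hperf Θ.isCharacter,
      detChar_res_eq_one_of_perfect hperf hπ, one_mul] at e1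
    exact eq_inv_of_mul_eq_one_right e1.symm
  have hΘE' : ∀ y : E, y ≠ 1 → Θ.1 y = l y + (l y : ℂ)⁻¹ := fun y hy => by
    rw [hΘE y hy, MonoidHom.comp_apply, hinv]
  have hreal : ∀ g, (Θ.1 g).im = 0 := by
    have hχr := IrrCharacter.cconj_eq_self_iff.1 (huniq χ.cconj (by simp [hd]))
    intro g
    by_cases hg : ∀ x : G, x * g * x⁻¹ ∉ E
    · simp [hΘ0 g hg, hχr]
    · push Not at hg
      obtain ⟨x, hx⟩ := hg
      rw [← Θ.isCharacter.isClassFunction g x]
      by_cases h1 : (⟨_, hx⟩ : E) = 1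
      · rw [show x * g * x⁻¹ = 1 from congrArg Subtype.val h1, hΘ1]
        simp [hχr]
      · rw [hΘE' ⟨_, hx⟩ h1, ← Units.val_inv_eq_inv_val, ← map_inv, ← conj_unitsHom]
        simp
  have hi : (sylN P).index = p + 1 := by
    refine IrrCharacter.index_sylN_eq_of_real H hperf hO Fr
      (by rw [← hord, pow_orderOf_eq_one]) he2 Θ
      (charDegree_eq_of_one_eq (by rw [hΘ1, χ.one_eq_charDegree, hd]; push_cast; ring)) hreal
      (ζ := l ⟨_, hhE⟩) ?_ ?_ (hΘE' ⟨_, hhE⟩ fun h => ?_) ?_
    · rw [← Units.val_pow_eq_pow_val, ← map_pow, ← hcE, pow_card_eq_one', map_one, Units.val_one]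
    · intro h
      apply hl
      apply Units.ext
      rw [hinv]
      exact (eq_inv_of_mul_eq_one_left (by rw [← sq, h])).symm
    · exact hh1 one_pos he (by simpa using congrArg Subtype.val h)
    · have := hΘE' (⟨_, hhE⟩ ^ 2) fun h => hhh (congrArg Subtype.val h)
      rw [map_pow, Units.val_pow_eq_pow_val, ← inv_pow] at this
      exact this
  obtain ⟨h3, hc2, ⟨φ⟩⟩ := hfin hi
  refine ⟨?_, ⟨φ⟩⟩
  obtain ⟨a, ha⟩ := H.exists_fixed_of_prime_degree hα Fr.h_mem
    (hnP _ hhE (by simpa using hh1 one_pos he))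
  have haS : Fr.h ∈ MulAction.stabilizer G a := by
    have : a ∈ MulAction.fixedBy α Fr.h := by rw [ha]; rfl
    exact this
  have hS : Nat.card (MulAction.stabilizer G a) * p = Nat.card G := by
    rw [← hα, ← MulAction.index_stabilizer_of_transitive G a, Subgroup.card_mul_index]
  obtain ⟨m, rfl⟩ : ∃ m, p = m + 1 := ⟨p - 1, by omega⟩
  rw [Nat.add_sub_cancel] at hc2
  have hS2 : Nat.card (MulAction.stabilizer G a) = Fr.e * (m + 1 + 1) := by
    apply Nat.eq_of_mul_eq_mul_right (show 0 < m + 1 by omega)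
    rw [hS, hcG, hi]
    ring
  have hm : 2 * Fr.e = m := by
    apply Nat.eq_of_mul_eq_mul_right (show 0 < (m + 1) * (m + 1 + 1) by positivity)
    rw [hcG, hi] at hc2
    linear_combination hc2
  rcases dickson_psl2 (two_ne_zero_of_char (p := m + 1) (by omega))
    (φ.toMonoidHom.comp (MulAction.stabilizer G a).subtype)
    (φ.injective.comp (MulAction.stabilizer G a).subtype_injective) (by
      rw [hS2]
      push_cast
      refine mul_ne_zero (Fr.e_ne_zeroK _) ?_
      have : ((m + 1 : ℕ) : ZMod (m + 1)) = 0 := ZMod.natCast_self _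
      push_cast at this
      rw [this]
      simp) with ⟨A, hA, hAi⟩ | h
  · exfalso
    have hi0 : A.index ≠ 0 := Subgroup.index_ne_zero_of_finite
    have hmem : (⟨_, haS⟩ : MulAction.stabilizer G a) ^ 2 ∈ A := by
      rcases (by omega : A.index = 1 ∨ A.index = 2) with h | h
      · rw [Subgroup.index_eq_one.1 h]
        trivial
      · exact Subgroup.sq_mem_of_index_two h _
    have hle : A.map (MulAction.stabilizer G a).subtype ≤ Subgroup.normalizer (E : Set G) := by
      rintro _ ⟨g, hg, rfl⟩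
      refine hTI _ _ (pow_mem hhE 2) hhh ?_
      have : (g : G) * Fr.h ^ 2 = Fr.h ^ 2 * g := congrArg Subtype.val (hA g hg _ hmem).eq
      rw [Subgroup.coe_subtype, this, mul_inv_cancel_right]
      exact pow_mem hhE 2
    have e1 := Subgroup.card_le_of_le hle
    rw [hNE, hcE, Subgroup.card_map_of_injective (Subgroup.subtype_injective _)] at e1
    have e2 := A.card_mul_index
    rw [hS2] at e2
    nlinarith
  · rw [hS2] at h
    have hb : Fr.e ≤ 5 := by
      by_contra hb
      rcases h with h | h | h <;> nlinarith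
    have : Fr.e = 3 ∨ Fr.e = 4 ∨ Fr.e = 5 := by omega
    rcases this with h' | h' | h' <;> rw [h'] at h hm <;> omega

end main

end Cfsg
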